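/-
Generic bitmask description of subsets of a finite type with an indexing `idx : α → ℕ`,
and a sifting lemma for multiply transitive actions.
-/
import Mathlib
import Cfsg.Agent.H14.Loop

set_option autoImplicit false

namespace Cfsg.Agent.H56

/-- An indexing of the type `α` by the numbers below `n`. -/
structure Indexing (α : Type*) where
  n : ℕ
  idx : α → ℕ
  pt : ℕ → α
  idx_lt : ∀ a, idx a < n
  pt_idx : ∀ a, pt (idx a) = a
  idx_pt : ∀ i < n, idx (pt i) = i

namespace Indexing

variable {α : Type*} (I : Indexing α)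

theorem idx_injective : Function.Injective I.idx := fun a b h => by
  rw [← I.pt_idx a, h, I.pt_idx]

theorem idx_inj {a b : α} : I.idx a = I.idx b ↔ a = b := I.idx_injective.eq_iff

variable [Fintype α]

/-- The set with mask `m`. -/
def bits (m : ℕ) : Finset α := Finset.univ.filter fun p => m.testBit (I.idx p)

theorem mem_bits {m : ℕ} {p : α} : p ∈ I.bits m ↔ m.testBit (I.idx p) = true := by
  simp [bits]

theorem pt_mem_bits {m i : ℕ} (hi : i < I.n) : I.pt i ∈ I.bits m ↔ m.testBit i = true := by
  rw [mem_bits, I.idx_pt i hi]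

theorem exists_bits [DecidableEq α] (s : Finset α) : ∃ m < 2 ^ I.n, I.bits m = s := by
  refine ⟨Nat.ofBits (fun i : Fin I.n => decide (I.pt i ∈ s)), Nat.ofBits_lt_two_pow _, ?_⟩
  ext p
  rw [mem_bits, Nat.testBit_ofBits_lt _ _ (I.idx_lt p)]
  simp [I.pt_idx]

theorem bits_inj {a b : ℕ} (ha : a < 2 ^ I.n) (hb : b < 2 ^ I.n) (h : I.bits a = I.bits b) :
    a = b := by
  apply Nat.eq_of_testBit_eq
  intro i
  by_cases hi : i < I.n
  · have := congrArg (fun s => I.pt i ∈ s) h
    simp only [I.pt_mem_bits hi, eq_iff_iff] at this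
    exact Bool.eq_iff_iff.2 this
  · have h2 : 2 ^ I.n ≤ 2 ^ i := Nat.pow_le_pow_right (by norm_num) (by omega)
    rw [Nat.testBit_eq_false_of_lt (lt_of_lt_of_le ha h2),
      Nat.testBit_eq_false_of_lt (lt_of_lt_of_le hb h2)]

variable [DecidableEq α]

theorem bits_and (a b : ℕ) : I.bits (a &&& b) = I.bits a ∩ I.bits b := by
  ext p; simp [mem_bits]
theorem bits_or (a b : ℕ) : I.bits (a ||| b) = I.bits a ∪ I.bits b := by
  ext p; simp [mem_bits]
omit [DecidableEq α] in
theorem bits_zero : I.bits 0 = ∅ := by ext p; simp [mem_bits]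
omit [DecidableEq α] in
theorem bits_two_pow (p : α) : I.bits (2 ^ I.idx p) = {p} := by
  ext q; simp [mem_bits, Nat.testBit_two_pow, I.idx_inj, eq_comm]
theorem bits_insert (p : α) (m : ℕ) : I.bits (2 ^ I.idx p ||| m) = insert p (I.bits m) := by
  rw [bits_or, bits_two_pow, Finset.singleton_union]
theorem bits_subset_of_and {a b : ℕ} (h : a &&& b = a) : I.bits a ⊆ I.bits b := by
  rw [← h, bits_and]; exact Finset.inter_subset_right
theorem bits_subset_iff {a b : ℕ} (ha : a < 2 ^ I.n) : I.bits a ⊆ I.bits b ↔ a &&& b = a :=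
  ⟨fun h => I.bits_inj (lt_of_le_of_lt Nat.and_le_left ha) ha
    (by rw [bits_and]; exact Finset.inter_eq_left.2 h), I.bits_subset_of_and⟩

omit [DecidableEq α] in
theorem card_bits (m : ℕ) : (I.bits m).card = H14.cntN I.n fun i => m.testBit i := by
  rw [H14.cntN_eq]
  apply Finset.card_bij (fun p _ => I.idx p)
  · intro p hp
    simpa [I.idx_lt, mem_bits] using hp
  · intro a _ b _ h
    exact I.idx_injective h
  · intro i hi
    simp only [Finset.mem_filter, Finset.mem_range] at hi
    exact ⟨I.pt i, (I.pt_mem_bits hi.1).2 hi.2, I.idx_pt i hi.1⟩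

end Indexing

/-- Sifting: if for each level `i` the elements of `P` fixing the earlier base points move the
`i`-th base point to every admissible point of `X`, then `P` moves the base to any injective tuple
in `X`. -/
theorem exists_smul_base_eq {G α : Type*} [Group G] [MulAction G α] (P : Subgroup G)
    (X : Set α) (hX : ∀ g ∈ P, ∀ x ∈ X, g • x ∈ X) {k : ℕ} (b : Fin k → α)
    (h : ∀ i : Fin k, ∀ y ∈ X, (∀ j < i, y ≠ b j) →
      ∃ g ∈ P, (∀ j < i, g • b j = b j) ∧ g • b i = y)
    (e : Fin k → α) (he : Function.Injective e) (heX : ∀ i, e i ∈ X) :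
    ∃ g ∈ P, ∀ i, g • b i = e i := by
  have key : ∀ n ≤ k, ∃ g ∈ P, ∀ i : Fin k, i.val < n → g • b i = e i := by
    intro n
    induction n with
    | zero => intro _; exact ⟨1, P.one_mem, fun i hi => absurd hi (by omega)⟩
    | succ n ih =>
      intro hn
      obtain ⟨g, hg, hge⟩ := ih (by omega)
      obtain ⟨u, hu, hu1, hu2⟩ := h ⟨n, hn⟩ (g⁻¹ • e ⟨n, hn⟩) (hX _ (P.inv_mem hg) _ (heX _))
        (fun j hj hj' => by
          have h1 : e ⟨n, hn⟩ = e j := by rw [← hge j hj, ← hj', smul_inv_smul]
          exact absurd (he h1) (ne_of_gt hj))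
      refine ⟨g * u, P.mul_mem hg hu, fun i hi => ?_⟩
      rcases Nat.lt_succ_iff_lt_or_eq.1 hi with hi | hi
      · rw [mul_smul, hu1 i hi, hge i hi]
      · have : i = ⟨n, hn⟩ := Fin.ext hi
        rw [this, mul_smul, hu2, smul_inv_smul]
  obtain ⟨g, hg, hge⟩ := key k le_rfl
  exact ⟨g, hg, fun i => hge i i.2⟩

/-- A sharply `k`-transitive group has `descFactorial n k` elements. -/
theorem card_eq_descFactorial {G α : Type*} [Group G] [MulAction G α] [Fintype α]
    (P : Subgroup G) {k : ℕ} (b : Fin k → α) (hb : Function.Injective b)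
    (h : ∀ e : Fin k → α, Function.Injective e → ∃ g ∈ P, ∀ i, g • b i = e i)
    (h1 : ∀ g ∈ P, (∀ i, g • b i = b i) → g = 1) :
    Nat.card P = (Fintype.card α).descFactorial k := by
  classical
  let f : P → (Fin k ↪ α) := fun g => ⟨fun i => (g : G) • b i, fun i j hij =>
    hb (MulAction.injective _ hij)⟩
  have hf : Function.Bijective f := by
    constructor
    · intro g g' hgg'
      have : (g' : G)⁻¹ * g = 1 := h1 _ (P.mul_mem (P.inv_mem g'.2) g.2) (fun i => by
        have : (g : G) • b i = (g' : G) • b i := congrArg (fun e : Fin k ↪ α => e i) hgg'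
        rw [mul_smul, this, inv_smul_smul])
      exact Subtype.ext (inv_mul_eq_one.1 this).symm
    · intro e
      obtain ⟨g, hg, hge⟩ := h e e.injective
      exact ⟨⟨g, hg⟩, Function.Embedding.ext hge⟩
  rw [Nat.card_eq_of_bijective f hf, Nat.card_eq_fintype_card, Fintype.card_embedding_eq,
    Fintype.card_fin]

/-- A function on a finite type with a left inverse is a permutation. -/
theorem exists_perm_of_leftInverse {α : Type*} [Finite α] (f g : α → α) (h : ∀ a, g (f a) = a) :
    ∃ σ : Equiv.Perm α, (∀ a, σ a = f a) ∧ ∀ a, σ.symm a = g a := by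
  have hi : Function.Injective f := Function.LeftInverse.injective h
  have hs := Finite.surjective_of_injective hi
  refine ⟨⟨f, g, h, fun a => ?_⟩, fun _ => rfl, fun _ => rfl⟩
  obtain ⟨b, rfl⟩ := hs a
  rw [h]

end Cfsg.Agent.H56
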