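/-
Cosets of the binary Golay code; the punctured code.
-/
import Cfsg.Agent.H56.Sextet

set_option autoImplicit false
open Cfsg MulAction
open scoped Pointwise

namespace Cfsg.Agent.H56

open H14 H55

theorem supp_sub {α : Type*} [Fintype α] [DecidableEq α] (v w : α → ZMod 2) :
    support₂ (v - w) = symmDiff (support₂ v) (support₂ w) := by
  ext a
  simp only [support₂, Finset.mem_symmDiff, Finset.mem_filter, Finset.mem_univ, true_and,
    Pi.sub_apply]
  generalize v a = x
  generalize w a = y
  revert x y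
  decide

theorem exists_close (s : Finset GolayPt) : ∃ c ∈ CSets, (symmDiff s c).card ≤ 4 := by
  obtain ⟨c, hc, h⟩ := Set.exists_min_image CSets (fun c => (symmDiff s c).card) (Set.toFinite _)
    ⟨_, empty_mem_cSets⟩
  refine ⟨c, hc, not_lt.1 fun h5 => ?_⟩
  obtain ⟨t, ht, h6⟩ := Finset.exists_subset_card_eq (show 5 ≤ (symmDiff s c).card from h5)
  obtain ⟨o, ⟨ho, h7⟩, -⟩ := octads_steiner.2 t h6
  have h1 := h _ (symmDiff_mem_cSets hc ho.1)
  have h2 := card_symmDiff_add (symmDiff s c) o
  have h3 := Finset.card_le_card (Finset.subset_inter ht h7)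
  rw [octad_card ho, symmDiff_assoc] at h2
  omega

theorem eq_of_close {s t : Finset GolayPt} (h : symmDiff s t ∈ CSets) (hc : s.card + t.card < 8) :
    s = t := by
  have h1 := card_symmDiff_add s t
  have h2 := card_of_mem_cSets h
  exact symmDiff_eq_bot.1 (Finset.card_eq_zero.1 (by omega))

theorem mem_sextet_iff {S : Finset (Finset GolayPt)} (hS : S ∈ sextets) {t u : Finset GolayPt}
    (ht : t ∈ S) : u ∈ S ↔ u.card = 4 ∧ symmDiff t u ∈ CSets := by
  have key : ∀ u ∈ S, symmDiff t u ∈ CSets := fun u hu => by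
    by_cases e : t = u
    · rw [e, symmDiff_self]; exact empty_mem_cSets
    · rw [(sextet_disjoint hS ht hu e).symmDiff_eq_sup]; exact (hS.2.2 t ht u hu e).1
  refine ⟨fun hu => ⟨hS.2.1 u hu, key u hu⟩, fun ⟨h1, h2⟩ => ?_⟩
  obtain ⟨p, hp⟩ := Finset.card_pos.1 (show 0 < u.card by omega)
  obtain ⟨v, hv, hpv⟩ := sextet_cover hS p
  have h3 := symmDiff_mem_cSets h2 (key v hv)
  rw [symmDiff_symmDiff_symmDiff_comm, symmDiff_self, bot_symmDiff] at h3
  have h4 := card_symmDiff_add u v
  have h5 := card_of_mem_cSets h3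
  have h6 := Finset.card_pos.2 ⟨p, Finset.mem_inter.2 ⟨hp, hpv⟩⟩
  rw [h1, hS.2.1 v hv] at h4
  rwa [symmDiff_eq_bot.1 (Finset.card_eq_zero.1 (show (symmDiff u v).card = 0 by omega))]

/-- the punctured word with a given support -/
def res (s : Finset GolayPt) : ZMod 23 → ZMod 2 := fun x => word (mask s) (some x)

theorem supp_word_mask (s : Finset GolayPt) : support₂ (word (mask s)) = s := by
  rw [support_word, bits_mask]

theorem mem_supp_res {s : Finset GolayPt} {x : ZMod 23} : x ∈ support₂ (res s) ↔ some x ∈ s := by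
  conv_rhs => rw [← supp_word_mask s]
  rw [support₂, support₂, Finset.mem_filter, Finset.mem_filter]
  exact ⟨fun h => ⟨Finset.mem_univ _, h.2⟩, fun h => ⟨Finset.mem_univ _, h.2⟩⟩

theorem norm_res (s : Finset GolayPt) : hammingNorm (res s) = (s.erase none).card := by
  rw [hammingNorm_eq_card]
  refine Finset.card_bij (fun x _ => some x) (fun x hx => by simpa using mem_supp_res.1 hx)
    (fun _ _ _ _ h => Option.some_injective _ h) fun b hb => ?_
  rw [Finset.mem_erase] at hb
  obtain ⟨x, rfl⟩ := Option.ne_none_iff_exists'.1 hb.1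
  exact ⟨x, mem_supp_res.2 hb.2, rfl⟩

theorem res_sub (s t : Finset GolayPt) : res s - res t = res (symmDiff s t) :=
  support₂_injective (by
    ext x
    rw [supp_sub, Finset.mem_symmDiff, mem_supp_res, mem_supp_res, mem_supp_res,
      Finset.mem_symmDiff])

theorem dist_res (s t : Finset GolayPt) :
    hammingDist (res s) (res t) = hammingNorm (res (symmDiff s t)) := by
  rw [hammingDist_comm, hammingDist_eq_hammingNorm, neg_add_eq_sub, res_sub]

theorem exists_res (u : ZMod 23 → ZMod 2) : ∃ s, res s = u ∧ s.card % 2 = 1 := by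
  have h : ∀ s : Finset GolayPt, (∀ x, some x ∈ s ↔ x ∈ support₂ u) → res s = u := fun s h =>
    support₂_injective (Finset.ext fun x => mem_supp_res.trans (h x))
  rcases Nat.mod_two_eq_zero_or_one ((support₂ u).image some).card with e | e
  · refine ⟨insert none ((support₂ u).image some), h _ (by simp), ?_⟩
    rw [Finset.card_insert_of_notMem (by simp)]
    omega
  · exact ⟨_, h _ (by simp), e⟩

theorem mem_punct {u : ZMod 23 → ZMod 2} :
    (∃ w ∈ golayCode, ∀ x : ZMod 23, u x = w (some x)) ↔ ∃ s ∈ CSets, res s = u :=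
  ⟨fun ⟨w, hw, h⟩ => ⟨_, support_mem_cSets_iff.2 hw, funext fun x => by
    rw [res, word_mask_support, h]⟩, fun ⟨s, hs, h⟩ => ⟨word (mask s),
      support_mem_cSets_iff.1 (by rwa [supp_word_mask]), fun x => by rw [← h, res]⟩⟩

theorem card_le_erase (s : Finset GolayPt) : s.card ≤ (s.erase none).card + 1 := by
  have := Finset.pred_card_le_card_erase (s := s) (a := none)
  omega

theorem eq_empty_of_norm {s : Finset GolayPt} (hs : s ∈ CSets) (h : hammingNorm (res s) < 7) :
    s = ∅ := by
  have h1 := card_le_erase s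
  have h2 := card_of_mem_cSets hs
  rw [norm_res] at h
  exact Finset.card_eq_zero.1 (by omega)

theorem res_inj {s t : Finset GolayPt} (hs : s ∈ CSets) (ht : t ∈ CSets)
    (h : hammingDist (res s) (res t) < 7) : s = t := by
  rw [dist_res] at h
  exact symmDiff_eq_bot.1 (eq_empty_of_norm (symmDiff_mem_cSets hs ht) h)

theorem ncard_punct (k : ℕ) : {u : ZMod 23 → ZMod 2 | u ∈ {u : ZMod 23 → ZMod 2 |
    ∃ w ∈ golayCode, ∀ x : ZMod 23, u x = w (some x)} ∧ hammingNorm u = k}.ncard =
      cnt2 64 64 fun x => Nat.beq (pc (Nat.land (enc x) 8388607)) k := by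
  rw [← ncard_cSets_filter (fun s => (s.erase none).card = k) _ fun x _ => by
    rw [beq_iff, ← card_inter_bits, show bits 8388607 = Finset.univ.erase none by decide +kernel,
      Finset.inter_erase, Finset.inter_univ]]
  symm
  refine Set.ncard_congr (fun s _ => res s) (fun s hs => ⟨mem_punct.2 ⟨s, hs.1, rfl⟩,
    (norm_res s).trans hs.2⟩) (fun s t hs ht h => res_inj hs.1 ht.1 (by simp [h])) ?_
  rintro u ⟨hu, h⟩
  obtain ⟨s, hs, rfl⟩ := mem_punct.1 hu
  exact ⟨s, ⟨hs, (norm_res s).symm.trans h⟩, rfl⟩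

end Cfsg.Agent.H56
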