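/-
Monomial automorphisms of a code: the permutation parts form a group, and the number of monomial
automorphisms is the product of the number of permutation parts and of diagonal ones.
-/
import Cfsg.Prelude.Def_SporadicCombinatorics

set_option autoImplicit false
open Cfsg

namespace Cfsg.Agent.H56

variable {α F : Type*} [Field F]

theorem monomialMap_comp (σ τ : Equiv.Perm α) (c d : α → Fˣ) (x : α → F) :
    monomialMap σ c (monomialMap τ d x) =
      monomialMap (σ * τ) (fun i => c i * d (σ.symm i)) x := by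
  funext i
  simp only [monomialMap, Units.val_mul, mul_assoc]
  rfl

theorem monomialMap_one (x : α → F) : monomialMap 1 (fun _ => (1 : Fˣ)) x = x := by
  funext i; exact one_mul (x i)

theorem monomialMap_inv_comp (σ : Equiv.Perm α) (c : α → Fˣ) (x : α → F) :
    monomialMap σ⁻¹ (fun i => (c (σ i))⁻¹) (monomialMap σ c x) = x := by
  funext i
  simp [monomialMap, Equiv.Perm.inv_def]

theorem monomialMap_injective (σ : Equiv.Perm α) (c : α → Fˣ) :
    Function.Injective (monomialMap σ c) :=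
  Function.LeftInverse.injective (monomialMap_inv_comp σ c)

theorem monomialMap_surjOn {C : Set (α → F)} (hC : C.Finite) {σ : Equiv.Perm α} {c : α → Fˣ}
    (h : ∀ x ∈ C, monomialMap σ c x ∈ C) : ∀ y ∈ C, ∃ x ∈ C, monomialMap σ c x = y :=
  ((hC.injOn_iff_bijOn_of_mapsTo h).1 (monomialMap_injective σ c).injOn).surjOn

/-- The permutation parts of the monomial maps preserving a finite code. -/
def monoPerm (C : Set (α → F)) (hC : C.Finite) : Subgroup (Equiv.Perm α) where
  carrier := {σ | ∃ c : α → Fˣ, ∀ x ∈ C, monomialMap σ c x ∈ C}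
  one_mem' := ⟨fun _ => 1, fun x hx => by rwa [monomialMap_one]⟩
  mul_mem' := by
    rintro σ τ ⟨c, hc⟩ ⟨d, hd⟩
    exact ⟨_, fun x hx => by rw [← monomialMap_comp]; exact hc _ (hd x hx)⟩
  inv_mem' := by
    rintro σ ⟨c, hc⟩
    refine ⟨fun i => (c (σ i))⁻¹, fun y hy => ?_⟩
    obtain ⟨x, hx, rfl⟩ := monomialMap_surjOn hC hc y hy
    rwa [monomialMap_inv_comp]

theorem mem_monoPerm {C : Set (α → F)} {hC : C.Finite} {σ : Equiv.Perm α} :
    σ ∈ monoPerm C hC ↔ ∃ c : α → Fˣ, ∀ x ∈ C, monomialMap σ c x ∈ C := Iff.rfl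

theorem card_monomial (C : Set (α → F)) (hC : C.Finite) :
    Nat.card {f : Equiv.Perm α × (α → Fˣ) // ∀ x ∈ C, monomialMap f.1 f.2 x ∈ C} =
      Nat.card (monoPerm C hC) * Nat.card {c : α → Fˣ // ∀ x ∈ C, monomialMap 1 c x ∈ C} := by
  rw [← Nat.card_prod]
  symm
  let c0 : monoPerm C hC → α → Fˣ := fun σ => σ.2.choose
  have hc0 : ∀ σ : monoPerm C hC, ∀ x ∈ C, monomialMap σ.1 (c0 σ) x ∈ C := fun σ => σ.2.choose_spec
  have hcomp : ∀ (σ : Equiv.Perm α) (c d : α → Fˣ) (x : α → F),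
      monomialMap 1 d (monomialMap σ c x) = monomialMap σ (fun i => d i * c i) x := by
    intro σ c d x
    rw [monomialMap_comp, one_mul]; rfl
  refine Nat.card_eq_of_bijective (fun p => ⟨(p.1.1, fun i => p.2.1 i * c0 p.1 i), fun x hx => by
    rw [← hcomp]; exact p.2.2 _ (hc0 p.1 x hx)⟩) ⟨?_, ?_⟩
  · rintro ⟨σ, d⟩ ⟨τ, e⟩ h
    simp only [Subtype.mk.injEq, Prod.mk.injEq] at h
    obtain rfl : σ = τ := Subtype.ext h.1
    refine Prod.ext rfl (Subtype.ext (funext fun i => ?_))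
    exact mul_right_cancel (congrFun h.2 i)
  · rintro ⟨⟨σ, c⟩, h⟩
    let σ' : monoPerm C hC := ⟨σ, c, h⟩
    refine ⟨⟨σ', ⟨fun i => c i * (c0 σ' i)⁻¹, fun y hy => ?_⟩⟩, ?_⟩
    · obtain ⟨x, hx, rfl⟩ := monomialMap_surjOn hC (hc0 σ') y hy
      rw [hcomp]
      simpa using h x hx
    · simp [σ']

end Cfsg.Agent.H56
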