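/-
The hexacode over an arbitrary field with four elements, reduced to the concrete field `F4`.
-/
import Cfsg.Agent.H56.Monomial
import Cfsg.Agent.H56.Bits
import Cfsg.Agent.H29.F4

set_option autoImplicit false
open Cfsg

namespace Cfsg.Agent.H56

open Cfsg.Agent.H29 Cfsg.Agent.H29.F4

/-- the Frobenius automorphism of `F4` -/
def frob4 : F4 ≃+* F4 where
  toFun x := x * x
  invFun x := x * x
  left_inv := by decide
  right_inv := by decide
  map_mul' := by decide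
  map_add' := by decide

theorem exists_equiv_F4 {F : Type*} [Field F] [Fintype F] (hF : Fintype.card F = 4) (ω : F)
    (hω : ω ^ 2 + ω + 1 = 0) : ∃ e : F ≃+* F4, e ω = w := by
  have h : ∀ x : F4, x ^ 2 + x + 1 = 0 → x = w ∨ frob4 x = w := by decide
  have h1 := congrArg (equivF4 hF) hω
  simp only [map_add, map_pow, map_one, map_zero] at h1
  rcases h _ h1 with h2 | h2
  · exact ⟨equivF4 hF, h2⟩
  · exact ⟨(equivF4 hF).trans frob4, h2⟩

/-- the systematic encoder of the hexacode over `F4` -/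
def henc (t : F4 × F4 × F4) : Fin 6 → F4 :=
  ![t.1, t.2.1, t.2.2, t.1 + t.2.1 + t.2.2, v * t.1 + w * t.2.1 + t.2.2, w * t.1 + v * t.2.1 + t.2.2]

/-- membership test -/
def hexT (x : Fin 6 → F4) : Prop :=
  x 3 = x 0 + x 1 + x 2 ∧ x 4 = v * x 0 + w * x 1 + x 2 ∧ x 5 = w * x 0 + v * x 1 + x 2

instance instDecidablePredHexT : DecidablePred hexT := fun x => by unfold hexT; infer_instance

theorem hexT_iff {x : Fin 6 → F4} : hexT x ↔ ∃ t, x = henc t := by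
  constructor
  · rintro ⟨h3, h4, h5⟩
    refine ⟨(x 0, x 1, x 2), funext fun i => ?_⟩
    fin_cases i
    exacts [rfl, rfl, rfl, h3, h4, h5]
  · rintro ⟨t, rfl⟩
    exact ⟨rfl, rfl, rfl⟩

theorem henc_injective : Function.Injective henc := fun _ _ h =>
  Prod.ext (congrFun h 0) (Prod.ext (congrFun h 1) (congrFun h 2))

theorem mem_hexacode_F4 {x : Fin 6 → F4} : x ∈ hexacode F4 w ↔ hexT x := by
  rw [hexacode, Submodule.mem_span_triple]
  constructor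
  · rintro ⟨a, b, c, rfl⟩
    revert a b c
    decide +kernel
  · intro h
    obtain ⟨⟨a, b, c⟩, rfl⟩ := hexT_iff.1 h
    refine ⟨w * a + v * b, v * a + v * b + c, b + c, ?_⟩
    clear h
    revert a b c
    decide +kernel

section
variable {F : Type*} [Field F] {ω : F} (e : F ≃+* F4) (he : e ω = w)
include he

theorem mem_hexacode_iff {x : Fin 6 → F} : x ∈ hexacode F ω ↔ hexT (fun i => e (x i)) := by
  rw [← mem_hexacode_F4, hexacode, hexacode, Submodule.mem_span_triple, Submodule.mem_span_triple]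
  constructor
  · rintro ⟨a, b, c, rfl⟩
    refine ⟨e a, e b, e c, funext fun i => ?_⟩
    fin_cases i <;> simp [he]
  · rintro ⟨a, b, c, h⟩
    refine ⟨e.symm a, e.symm b, e.symm c, funext fun i => e.injective ?_⟩
    rw [← congrFun h i]
    fin_cases i <;> simp [he]

theorem ncard_hexacode [DecidableEq F] (R : Finset (Fin 6) → Prop) [DecidablePred R] :
    {x : Fin 6 → F | x ∈ hexacode F ω ∧ R (Finset.univ.filter fun i => x i ≠ 0)}.ncard =
      (Finset.univ.filter fun t => R (Finset.univ.filter fun i => henc t i ≠ 0)).card := by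
  rw [← Set.ncard_coe_finset]
  symm
  refine Set.ncard_congr (fun t _ => fun i => e.symm (henc t i)) ?_ ?_ ?_
  · intro t ht
    refine ⟨(mem_hexacode_iff e he).2 (hexT_iff.2 ⟨t, by simp⟩), ?_⟩
    simpa using ht
  · intro s t _ _ h
    exact henc_injective (funext fun i => e.symm.injective (congrFun h i))
  · rintro x ⟨hx, hR⟩
    obtain ⟨t, ht⟩ := hexT_iff.1 ((mem_hexacode_iff e he).1 hx)
    refine ⟨t, ?_, funext fun i => ?_⟩
    · simpa [← ht] using hR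
    · rw [← ht]; simp

/-- a monomial map preserves the hexacode iff its image over `F4` maps code words to code words -/
theorem preserves_iff (σ : Equiv.Perm (Fin 6)) (c : Fin 6 → Fˣ) :
    (∀ x ∈ hexacode F ω, monomialMap σ c x ∈ hexacode F ω) ↔
      ∀ t, hexT fun i => e (c i) * henc t (σ.symm i) := by
  simp only [mem_hexacode_iff e he, monomialMap, map_mul]
  constructor
  · intro h t
    simpa using h (fun i => e.symm (henc t i)) (hexT_iff.2 ⟨t, by simp⟩)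
  · intro h x hx
    obtain ⟨t, ht⟩ := hexT_iff.1 hx
    have := h t
    rw [← ht] at this
    exact this

end

/-- monomial automorphisms: permutation, inverse, scalars -/
def hexAutData : List ((Fin 6 → Fin 6) × (Fin 6 → Fin 6) × (Fin 6 → F4)) := [
  (![0, 1, 2, 3, 4, 5], ![0, 1, 2, 3, 4, 5], ![i, i, i, i, i, i]),
  (![1, 0, 2, 3, 5, 4], ![1, 0, 2, 3, 5, 4], ![i, i, i, i, i, i]),
  (![2, 0, 1, 3, 4, 5], ![1, 2, 0, 3, 4, 5], ![i, i, i, i, w, v]),
  (![3, 0, 1, 2, 5, 4], ![1, 2, 3, 0, 5, 4], ![i, i, i, i, v, w]),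
  (![4, 0, 1, 2, 3, 5], ![1, 2, 3, 4, 0, 5], ![i, w, v, i, v, w]),
  (![5, 0, 1, 2, 4, 3], ![1, 2, 3, 5, 4, 0], ![i, v, w, i, v, w]),
  (![0, 0, 0, 0, 0, 0], ![0, 0, 0, 0, 0, 0], ![i, i, i, i, i, i]),
  (![0, 1, 2, 3, 4, 5], ![0, 1, 2, 3, 4, 5], ![i, i, i, i, i, i]),
  (![0, 2, 1, 3, 5, 4], ![0, 2, 1, 3, 5, 4], ![i, i, i, i, w, v]),
  (![0, 3, 1, 2, 4, 5], ![0, 2, 3, 1, 4, 5], ![i, i, i, i, v, w]),
  (![0, 4, 1, 2, 5, 3], ![0, 2, 3, 5, 1, 4], ![i, w, v, i, v, w]),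
  (![0, 5, 1, 2, 3, 4], ![0, 2, 3, 4, 5, 1], ![i, v, w, i, v, w]),
  (![0, 0, 0, 0, 0, 0], ![0, 0, 0, 0, 0, 0], ![i, i, i, i, i, i]),
  (![0, 0, 0, 0, 0, 0], ![0, 0, 0, 0, 0, 0], ![i, i, i, i, i, i]),
  (![0, 1, 2, 3, 4, 5], ![0, 1, 2, 3, 4, 5], ![i, i, i, i, i, i]),
  (![0, 1, 3, 2, 5, 4], ![0, 1, 3, 2, 5, 4], ![i, i, i, i, i, i]),
  (![0, 1, 4, 2, 3, 5], ![0, 1, 3, 4, 2, 5], ![i, w, v, v, v, v]),
  (![0, 1, 5, 2, 4, 3], ![0, 1, 3, 5, 4, 2], ![i, v, w, w, w, w]),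
  (![0, 0, 0, 0, 0, 0], ![0, 0, 0, 0, 0, 0], ![i, i, i, i, i, i]),
  (![0, 0, 0, 0, 0, 0], ![0, 0, 0, 0, 0, 0], ![i, i, i, i, i, i]),
  (![0, 0, 0, 0, 0, 0], ![0, 0, 0, 0, 0, 0], ![i, i, i, i, i, i]),
  (![0, 1, 2, 3, 4, 5], ![0, 1, 2, 3, 4, 5], ![i, i, i, i, i, i]),
  (![0, 1, 2, 4, 5, 3], ![0, 1, 2, 5, 3, 4], ![i, w, v, v, v, v]),
  (![0, 1, 2, 5, 3, 4], ![0, 1, 2, 4, 5, 3], ![i, v, w, w, w, w])]

theorem hexAut_check : ∀ (i : Fin 4) (y : Fin 6), (∀ j < i, y ≠ Fin.castLE (by norm_num) j) →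
    let d := hexAutData.getD (6 * i + y) (id, id, 1)
    (∀ p, d.2.1 (d.1 p) = p) ∧
    (∀ j < i, d.1 (Fin.castLE (by norm_num) j) = Fin.castLE (by norm_num) (j : Fin 4)) ∧
    d.1 (Fin.castLE (by norm_num) i) = y ∧ (∀ p, d.2.2 p ≠ 0) ∧
    (∀ t, hexT fun p => d.2.2 p * henc t (d.2.1 p)) ∧
    (∏ j : Fin 6, ∏ i ∈ Finset.Iio j, (if d.1 i < d.1 j then 1 else -1 : ℤˣ)) = 1 := by
  decide +kernel

end Cfsg.Agent.H56
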