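/-
`PSL(2,11)` on its 22 subgroups isomorphic to `A₅`.
-/
import Cfsg.Agent.H56.GrpTools
import Cfsg.Agent.H56.Mod.L211
import Cfsg.Agent.H56.Mod.Alt

set_option autoImplicit false

namespace Cfsg.Agent.H56.L211A5

open H14 MulAction

def gens : List ℕ := [nat_lit 0x1f57366b83292890ca1212039461, nat_lit 0x1b37ae548d5907242351c0829882]
def c0L0 : Lev := ⟨nat_lit 0, nat_lit 0x7ff, (.node (nat_lit 5) (.node (nat_lit 2) (.node (nat_lit 1) (.leaf (nat_lit 0x2b49ca307b9ac5a928398a418820)) (.leaf (nat_lit 0x28e845b59be4b618672082a4a005))) (.node (nat_lit 3) (.leaf (nat_lit 0x22dab1eea426b920e930c22500a4)) (.node (nat_lit 4) (.leaf (nat_lit 0x18f8b97393614a84854a84301d06)) (.leaf (nat_lit 0x1f57366b83292890ca1212039461))))) (.node (nat_lit 8) (.node (nat_lit 6) (.leaf (nat_lit 0x1b37ae548d5907242351c0829882)) (.node (nat_lit 7) (.leaf (nat_lit 0x22b6be4e9d21560c81301474a0a2)) (.leaf (nat_lit 0x2ac5ce8f741b1920e20146432829))))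 (.node (nat_lit 9) (.leaf (nat_lit 0x170955938b5f4705404910329847)) (.node (nat_lit 10) (.leaf (nat_lit 0x2509b22e6d17578c09310a708948)) (.leaf (nat_lit 0x20f651d15caad981042a8c1124e3))))))⟩
def c0C0 : LevCert := ⟨c0L0,
    [(nat_lit 4, nat_lit 0), (nat_lit 5, nat_lit 1), (nat_lit 10, nat_lit 0), (nat_lit 1, nat_lit 1), (nat_lit 2, nat_lit 0), (nat_lit 3, nat_lit 1), (nat_lit 8, nat_lit 0), (nat_lit 7, nat_lit 1), (nat_lit 9, nat_lit 1), (nat_lit 6, nat_lit 0)],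
    [[nat_lit 0, nat_lit 0, nat_lit 0, nat_lit 0, nat_lit 2, nat_lit 2, nat_lit 0, nat_lit 0, nat_lit 0, nat_lit 2, nat_lit 2, nat_lit 0], [nat_lit 2, nat_lit 2, nat_lit 4, nat_lit 4, nat_lit 2, nat_lit 4, nat_lit 2, nat_lit 4, nat_lit 4, nat_lit 2]],
    [nat_lit 0x2b37c971a358e820263a84928c80, nat_lit 0x253abd8ea2db0888e130d2829140]⟩
def c0L1 : Lev := ⟨nat_lit 1, nat_lit 0x7fe, (.node (nat_lit 6) (.node (nat_lit 3) (.node (nat_lit 2) (.leaf (nat_lit 0x2b49ca307b9ac5a928398a418820)) (.leaf (nat_lit 0x254acdac7c5cb814e94088a184c0))) (.node (nat_lit 4) (.leaf (nat_lit 0x2559d16e7b2306910550d27088c0)) (.node (nat_lit 5) (.leaf (nat_lit 0x2afa4a0b9b1cd8988a3a06111520)) (.leaf (nat_lit 0x24fad1cd9c19158ce45142612500))))) (.node (nat_lit 8) (.node (nat_lit 7) (.leaf (nat_lit 0x2549bdd1ac16d60d02304aa224e0)) (.leaf (nat_lit 0x1f3955b0a3171724c7091022a860))) (.node (nat_lit 9) (.leaf (nat_lit 0x253abd8ea2db0888e130d2829140))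 (.node (nat_lit 10) (.leaf (nat_lit 0x2b37c971a358e820263a84928c80)) (.leaf (nat_lit 0x255a3e2c9b60b705433088749500))))))⟩
def c0C1 : LevCert := ⟨c0L1,
    [(nat_lit 9, nat_lit 0), (nat_lit 8, nat_lit 1), (nat_lit 4, nat_lit 0), (nat_lit 5, nat_lit 1), (nat_lit 10, nat_lit 0), (nat_lit 2, nat_lit 1), (nat_lit 3, nat_lit 0), (nat_lit 6, nat_lit 0), (nat_lit 7, nat_lit 1)],
    [[nat_lit 0, nat_lit 2, nat_lit 0, nat_lit 2, nat_lit 0, nat_lit 2, nat_lit 0, nat_lit 2, nat_lit 2, nat_lit 0], [nat_lit 4, nat_lit 4, nat_lit 2]],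
    [nat_lit 0x2b39518d7c1cb894ea20d0911820, nat_lit 0x1f29d190ab5d15a845191063a420]⟩
def c0L2 : Lev := ⟨nat_lit 2, nat_lit 732, (.node (nat_lit 6) (.node (nat_lit 3) (.leaf (nat_lit 0x2b49ca307b9ac5a928398a418820)) (.node (nat_lit 4) (.leaf (nat_lit 0x2b39518d7c1cb894ea20d0911820)) (.leaf (nat_lit 0x1f3a4a2eac1ab6206a31ca249020)))) (.node (nat_lit 7) (.leaf (nat_lit 0x2b2a4d6e7b611620854894730c20)) (.node (nat_lit 9) (.leaf (nat_lit 0x1f494d6daba0c894c81254321c20)) (.leaf (nat_lit 0x1f29d190ab5d15a845191063a420)))))⟩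
def c0C2 : LevCert := ⟨c0L2,
    [(nat_lit 3, nat_lit 0), (nat_lit 9, nat_lit 1), (nat_lit 6, nat_lit 0), (nat_lit 7, nat_lit 1), (nat_lit 4, nat_lit 0)],
    [],
    []⟩
def c0 : List LevCert := [c0C0, c0C1, c0C2]
def c0L : List Lev := [c0L0, c0L1, c0L2]
def c1L0 : Lev := ⟨nat_lit 11, nat_lit 0x3ff800, (.node (nat_lit 16) (.node (nat_lit 13) (.node (nat_lit 12) (.leaf (nat_lit 0x2b49ca307b9ac5a928398a418820)) (.leaf (nat_lit 0x28e845b59be4b618672082a4a005))) (.node (nat_lit 14) (.leaf (nat_lit 0x2509b22e6d17578c09310a708948)) (.node (nat_lit 15) (.leaf (nat_lit 0x2747ca0caadd16a84641c6520520)) (.leaf (nat_lit 0x20f651d15caad981042a8c1124e3))))) (.node (nat_lit 19) (.node (nat_lit 17) (.leaf (nat_lit 0x1f57366b83292890ca1212039461)) (.node (nat_lit 18) (.leaf (nat_lit 0x18f8b97393614a84854a84301d06)) (.leaf (nat_lit 0x1b37ae548d5907242351c0829882)))) (.node (nat_lit 20) (.leaf (nat_lit 0x2ac5ce8f741b1920e20146432829))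 (.node (nat_lit 21) (.leaf (nat_lit 0x22b6be4e9d21560c81301474a0a2)) (.leaf (nat_lit 0x170955938b5f4705404910329847))))))⟩
def c1C0 : LevCert := ⟨c1L0,
    [(nat_lit 16, nat_lit 0), (nat_lit 18, nat_lit 1), (nat_lit 15, nat_lit 0), (nat_lit 12, nat_lit 1), (nat_lit 17, nat_lit 1), (nat_lit 21, nat_lit 0), (nat_lit 19, nat_lit 1), (nat_lit 14, nat_lit 0), (nat_lit 13, nat_lit 1), (nat_lit 20, nat_lit 0)],
    [[nat_lit 2, nat_lit 2, nat_lit 2, nat_lit 2, nat_lit 0, nat_lit 0], [nat_lit 2, nat_lit 2, nat_lit 2, nat_lit 4, nat_lit 4]],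
    [nat_lit 0x22e7ca15636935a8403a02548c86, nat_lit 0x291635d2abe7058868504c53a404]⟩
def c1L1 : Lev := ⟨nat_lit 12, nat_lit 0x3ff000, (.node (nat_lit 17) (.node (nat_lit 14) (.node (nat_lit 13) (.leaf (nat_lit 0x2b49ca307b9ac5a928398a418820)) (.leaf (nat_lit 0x22e84deda55925a4e81002650c85))) (.node (nat_lit 15) (.leaf (nat_lit 0x1d09d1b28b1f558d2051101388c5)) (.node (nat_lit 16) (.leaf (nat_lit 0x22e7ca15636935a8403a02548c86)) (.leaf (nat_lit 0x1f56c28c7465359c48194804a8c1))))) (.node (nat_lit 19) (.node (nat_lit 18) (.leaf (nat_lit 0x20dabd9474672588e019888524a1)) (.leaf (nat_lit 0x1cf932b38d20d58d484900111ca6))) (.node (nat_lit 20) (.leaf (nat_lit 0x291635d2abe7058868504c53a404)) (.node (nat_lit 21) (.leaf (nat_lit 0x1ac8d24eabe1358c45500c849c24)) (.leaf (nat_lit 0x1929c1f46d62e59d251840650888))))))⟩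
def c1C1 : LevCert := ⟨c1L1,
    [(nat_lit 15, nat_lit 0), (nat_lit 19, nat_lit 1), (nat_lit 14, nat_lit 1), (nat_lit 13, nat_lit 1), (nat_lit 20, nat_lit 0), (nat_lit 17, nat_lit 1), (nat_lit 18, nat_lit 1), (nat_lit 21, nat_lit 1), (nat_lit 16, nat_lit 1)],
    [[nat_lit 0, nat_lit 2, nat_lit 2, nat_lit 2, nat_lit 2, nat_lit 0, nat_lit 2], [nat_lit 4, nat_lit 4, nat_lit 4, nat_lit 2, nat_lit 2, nat_lit 2, nat_lit 2, nat_lit 4, nat_lit 4]],
    [nat_lit 0x213a465573dac58864398084a825, nat_lit 0x270745afa564c59d26110281a805]⟩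
def c1L2 : Lev := ⟨nat_lit 0, nat_lit 35, (.node (nat_lit 1) (.leaf (nat_lit 0x2b49ca307b9ac5a928398a418820)) (.node (nat_lit 5) (.leaf (nat_lit 0x270745afa564c59d26110281a805)) (.leaf (nat_lit 0x213a465573dac58864398084a825))))⟩
def c1C2 : LevCert := ⟨c1L2,
    [(nat_lit 5, nat_lit 0), (nat_lit 1, nat_lit 1)],
    [[nat_lit 2, nat_lit 2, nat_lit 0]],
    [nat_lit 0x2957c9ae9c22c59c6652024488a0]⟩
def c1L3 : Lev := ⟨nat_lit 1, nat_lit 34, (.node (nat_lit 5) (.leaf (nat_lit 0x2b49ca307b9ac5a928398a418820)) (.leaf (nat_lit 0x2957c9ae9c22c59c6652024488a0)))⟩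
def c1C3 : LevCert := ⟨c1L3,
    [(nat_lit 5, nat_lit 0)],
    [],
    []⟩
def c1 : List LevCert := [c1C0, c1C1, c1C2, c1C3]
def c1L : List Lev := [c1L0, c1L1, c1L2, c1L3]
abbrev E : Enc (Fin 22) 22 5 32 := finEnc 22 5 32 rfl (by decide)
abbrev D : Subgroup (Equiv.Perm (Fin 22)) := E.grp gens
theorem chain0 : E.IsChain c0L D := chain_grp (cert := c0) (by decide +kernel)
theorem chain1 : E.IsChain c1L D := chain_grp (cert := c1) (by decide +kernel)
def iA : List ℕ := [nat_lit 0x1f57366b83292890ca1212039461, nat_lit 0x1b37ae548d5907242351c0829882]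
def iB : List ℕ := [nat_lit 0x5097ba386421, nat_lit 0xb460a2897531]
def iS : List ℕ := [nat_lit 0x6d67dd86065e71a6173d538d4cb40c51244418a0882401c50c1, nat_lit 0x85a71681879f75b6573533cb494455310389043287008146102]
def iCertL0 : Lev := ⟨nat_lit 22, nat_lit 0x3ffc00000, (.node (nat_lit 28) (.node (nat_lit 25) (.node (nat_lit 23) (.leaf (nat_lit 0x8607de75c6da6585d65544d24503ce34c2ca2481c61440c2040)) (.node (nat_lit 24) (.leaf (nat_lit 0x7215da61d6df66059e3d244e55030b51334a0850491c02040c6)) (.leaf (nat_lit 0x7597217976206967db51141355238b34c3c20c80091c4181285)))) (.node (nat_lit 26) (.leaf (nat_lit 0x7187db65782159d79a2d049531344d3d4381280244203146087)) (.node (nat_lit 27) (.leaf (nat_lit 0x79772085a75661f6d944d54c3ce5104cb4881c9183042280144)) (.leaf (nat_lit 0x85f61769b59c81e75930f44e2d348d41454110524a083007206))))) (.node (nat_lit 31) (.node (nat_lit 29) (.leaf (nat_lit 0x6577e16d671d81e69840f3143912d254d4c020414a1810891c3))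 (.node (nat_lit 30) (.leaf (nat_lit 0x6de81759a75f85971850e4113554cf48b3060c710204a248005)) (.leaf (nat_lit 0x85a71681879f75b6573533cb494455310389043287008146102)))) (.node (nat_lit 32) (.leaf (nat_lit 0x65d5985de85f6dc81a54c2d350f3903514881c20050c418a049)) (.node (nat_lit 33) (.leaf (nat_lit 0x6d67dd86065e71a6173d538d4cb40c51244418a0882401c50c1)) (.leaf (nat_lit 0x59961a85f8176dc79d48c3504554d43ce2c32811c5106242008))))))⟩
def iCertC0 : LevCert := ⟨iCertL0,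
    [(nat_lit 32, nat_lit 0), (nat_lit 30, nat_lit 1), (nat_lit 28, nat_lit 0), (nat_lit 29, nat_lit 1), (nat_lit 26, nat_lit 0), (nat_lit 27, nat_lit 1), (nat_lit 25, nat_lit 0), (nat_lit 31, nat_lit 1), (nat_lit 24, nat_lit 0), (nat_lit 33, nat_lit 0), (nat_lit 23, nat_lit 1)],
    [[nat_lit 2, nat_lit 2, nat_lit 2, nat_lit 0, nat_lit 2], [nat_lit 4, nat_lit 2, nat_lit 2, nat_lit 2, nat_lit 2]],
    [nat_lit 0x5d97207587db85a79644c3ce51048b54d4c908114a0c42001c6, nat_lit 0x69f71d61b5de66181648e3112d53d350d4052041c224a043006]⟩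
def iCertL1 : Lev := ⟨nat_lit 23, nat_lit 0x3ff800000, (.node (nat_lit 28) (.node (nat_lit 25) (.node (nat_lit 24) (.leaf (nat_lit 0x8607de75c6da6585d65544d24503ce34c2ca2481c61440c2040)) (.leaf (nat_lit 0x6dc61d69f7a085765638b3544d148f3154030441400891c818a))) (.node (nat_lit 26) (.leaf (nat_lit 0x7a161975a71f5db81650d48b3103934553c20070c920404614a)) (.node (nat_lit 27) (.leaf (nat_lit 0x8196df62171769e7562cd3d33954504943080c024504a1061c2)) (.leaf (nat_lit 0x69f71d61b5de66181648e3112d53d350d4052041c224a043006))))) (.node (nat_lit 31) (.node (nat_lit 29) (.leaf (nat_lit 0x79c6d885781d65a7d645334b4123cc39454910a1c3205001182)) (.node (nat_lit 30) (.leaf (nat_lit 0x8187da5de65d85b71650f55340e48d2cc442109148043187280)) (.leaf (nat_lit 0x65e6d775f69881c8563512cf5504d23143862830401c4149202)))) (.node (nat_lit 32) (.leaf (nat_lit 0x7d95dc85a6e079d6164143cc4d22d544e3440462090052821c3)) (.node (nat_lit 33) (.leaf (nat_lit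 0x8176a175b61c79f6563153933502cf5114801852020441ca0c9)) (.leaf (nat_lit 0x5d97207587db85a79644c3ce51048b54d4c908114a0c42001c6))))))⟩
def iCertC1 : LevCert := ⟨iCertL1,
    [(nat_lit 33, nat_lit 0), (nat_lit 27, nat_lit 1), (nat_lit 25, nat_lit 0), (nat_lit 24, nat_lit 1), (nat_lit 26, nat_lit 0), (nat_lit 28, nat_lit 1), (nat_lit 32, nat_lit 0), (nat_lit 29, nat_lit 1), (nat_lit 31, nat_lit 0), (nat_lit 30, nat_lit 0)],
    [[nat_lit 0, nat_lit 0, nat_lit 0, nat_lit 2], [nat_lit 2, nat_lit 4, nat_lit 2, nat_lit 2, nat_lit 2, nat_lit 4, nat_lit 4, nat_lit 4, nat_lit 4]],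
    [nat_lit 0x71a6dd7d86617a05d64cf44d48c2ce55440114420a1800c7242, nat_lit 0x62165f6e079c75a5d644b49535440e4cf3091801012820c8147]⟩
def iCertL2 : Lev := ⟨nat_lit 24, nat_lit 0x315000000, (.node (nat_lit 28) (.node (nat_lit 26) (.leaf (nat_lit 0x8607de75c6da6585d65544d24503ce34c2ca2481c61440c2040)) (.leaf (nat_lit 0x81c79b65a7587e15d649035354f30e44b5052820090470c4188))) (.node (nat_lit 32) (.leaf (nat_lit 0x71a6dd7d86617a05d64cf44d48c2ce55440114420a1800c7242)) (.node (nat_lit 33) (.leaf (nat_lit 0x6987597a17e06dc5d634c5514cb50e4903c60470852480c0284)) (.leaf (nat_lit 0x62165f6e079c75a5d644b49535440e4cf3091801012820c8147)))))⟩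
def iCertC2 : LevCert := ⟨iCertL2,
    [(nat_lit 28, nat_lit 0), (nat_lit 33, nat_lit 1), (nat_lit 26, nat_lit 1), (nat_lit 32, nat_lit 1)],
    [],
    []⟩
def iCert : List LevCert := [iCertC0, iCertC1, iCertC2]
def iCertL : List Lev := [iCertL0, iCertL1, iCertL2]
def iCertAL0 : Lev := ⟨nat_lit 0, nat_lit 0x7ff, (.node (nat_lit 5) (.node (nat_lit 2) (.node (nat_lit 1) (.leaf (nat_lit 0x2b49ca307b9ac5a928398a418820)) (.leaf (nat_lit 0x28e845b59be4b618672082a4a005))) (.node (nat_lit 3) (.leaf (nat_lit 0x22dab1eea426b920e930c22500a4)) (.node (nat_lit 4) (.leaf (nat_lit 0x18f8b97393614a84854a84301d06)) (.leaf (nat_lit 0x1f57366b83292890ca1212039461))))) (.node (nat_lit 8) (.node (nat_lit 6) (.leaf (nat_lit 0x1b37ae548d5907242351c0829882)) (.node (nat_lit 7) (.leaf (nat_lit 0x22b6be4e9d21560c81301474a0a2)) (.leaf (nat_lit 0x2ac5ce8f741b1920e20146432829)))) (.node (nat_lit 9) (.leaf (nat_lit 0x170955938b5f4705404910329847))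 (.node (nat_lit 10) (.leaf (nat_lit 0x2509b22e6d17578c09310a708948)) (.leaf (nat_lit 0x20f651d15caad981042a8c1124e3))))))⟩
def iCertAC0 : LevCert := ⟨iCertAL0,
    [(nat_lit 4, nat_lit 0), (nat_lit 5, nat_lit 1), (nat_lit 10, nat_lit 0), (nat_lit 1, nat_lit 1), (nat_lit 2, nat_lit 0), (nat_lit 3, nat_lit 1), (nat_lit 8, nat_lit 0), (nat_lit 7, nat_lit 1), (nat_lit 9, nat_lit 1), (nat_lit 6, nat_lit 0)],
    [[nat_lit 2, nat_lit 2, nat_lit 0, nat_lit 2, nat_lit 0, nat_lit 0, nat_lit 2], [nat_lit 2, nat_lit 4, nat_lit 2]],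
    [nat_lit 0x1f5a4db1931d05a465120813a8c0, nat_lit 0x2747ca0caadd16a84641c6520520]⟩
def iCertAL1 : Lev := ⟨nat_lit 1, nat_lit 0x7fe, (.node (nat_lit 6) (.node (nat_lit 3) (.node (nat_lit 2) (.leaf (nat_lit 0x2b49ca307b9ac5a928398a418820)) (.leaf (nat_lit 0x2747ca0caadd16a84641c6520520))) (.node (nat_lit 4) (.leaf (nat_lit 0x29594e307ad8d72548288e409860)) (.node (nat_lit 5) (.leaf (nat_lit 0x1f5a4db1931d05a465120813a8c0)) (.leaf (nat_lit 0x24fad1cd9c19158ce45142612500))))) (.node (nat_lit 8) (.node (nat_lit 7) (.leaf (nat_lit 0x29393e0cab62e589461850549c80)) (.leaf (nat_lit 0x2b3a3dd09456c68883098a9428e0))) (.node (nat_lit 9) (.leaf (nat_lit 0x2727d58ea460d59c41490c850ca0)) (.node (nat_lit 10) (.leaf (nat_lit 0x1f4ac9919b57072827320832a440)) (.leaf (nat_lit 0x26fa556c941b1704a449c6232900))))))⟩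
def iCertAC1 : LevCert := ⟨iCertAL1,
    [(nat_lit 4, nat_lit 0), (nat_lit 2, nat_lit 1), (nat_lit 5, nat_lit 0), (nat_lit 3, nat_lit 1), (nat_lit 7, nat_lit 0), (nat_lit 9, nat_lit 1), (nat_lit 8, nat_lit 0), (nat_lit 6, nat_lit 1), (nat_lit 10, nat_lit 0)],
    [[nat_lit 0, nat_lit 2, nat_lit 0, nat_lit 0, nat_lit 0, nat_lit 0, nat_lit 2, nat_lit 0], [nat_lit 2, nat_lit 2, nat_lit 2, nat_lit 4, nat_lit 4, nat_lit 2]],
    [nat_lit 0x2b39518d7c1cb894ea20d0911820, nat_lit 0x1f494d6daba0c894c81254321c20]⟩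
def iCertAL2 : Lev := ⟨nat_lit 2, nat_lit 732, (.node (nat_lit 6) (.node (nat_lit 3) (.leaf (nat_lit 0x2b49ca307b9ac5a928398a418820)) (.node (nat_lit 4) (.leaf (nat_lit 0x2b39518d7c1cb894ea20d0911820)) (.leaf (nat_lit 0x1f3a4a2eac1ab6206a31ca249020)))) (.node (nat_lit 7) (.leaf (nat_lit 0x2b2a4d6e7b611620854894730c20)) (.node (nat_lit 9) (.leaf (nat_lit 0x1f494d6daba0c894c81254321c20)) (.leaf (nat_lit 0x1f29d190ab5d15a845191063a420)))))⟩
def iCertAC2 : LevCert := ⟨iCertAL2,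
    [(nat_lit 3, nat_lit 0), (nat_lit 7, nat_lit 1), (nat_lit 6, nat_lit 0), (nat_lit 4, nat_lit 1), (nat_lit 9, nat_lit 0)],
    [],
    []⟩
def iCertA : List LevCert := [iCertAC0, iCertAC1, iCertAC2]
def iCertAL : List Lev := [iCertAL0, iCertAL1, iCertAL2]
theorem i_ok : isoOK 22 5 32 12 4 16 34 6 c0L L211.certL iA iB iS iCert iCertA = true := by
  decide +kernel
theorem i_ss : ssOK 6 64 34 iCert iS = true := by
  decide +kernel
theorem i_equiv : Nonempty (L211.K ≃* D) :=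
  equiv_of_isoOK L211.chain chain0 34 6 64 rfl rfl (by decide) i_ok i_ss (by decide +kernel)
def jA : List ℕ := [nat_lit 0x28c8, nat_lit 0x654]
def jB : List ℕ := [nat_lit 0x275a498d7c56e81caa4188908c40, nat_lit 0x2af94dcca45b0588e8494c11a880]
def jS : List ℕ := [nat_lit 0x6359bc654b4275629ed5a5c641ca220c20, nat_lit 0x6a97c4e39b4ab03b1ae52cc87a4a018444]
def jCertL0 : Lev := ⟨nat_lit 6, nat_lit 0xffc0, (.node (nat_lit 11) (.node (nat_lit 8) (.node (nat_lit 7) (.leaf (nat_lit 0x6b38bdab49ca307b9ac5a928398a418820)) (.leaf (nat_lit 0x671abce148d6d26a58f5b947320a311020))) (.node (nat_lit 9) (.leaf (nat_lit 0x6359bc654b4275629ed5a5c641ca220c20)) (.node (nat_lit 10) (.leaf (nat_lit 0x6a97c4e39b4ab03b1ae52cc87a4a018444)) (.leaf (nat_lit 0x5f54c56599c2d172ced5198943ca100c44))))) (.node (nat_lit 13) (.node (nat_lit 12) (.leaf (nat_lit 0x5f38a4edaac251434eb329e9730a400861)) (.leaf (nat_lit 0x5338d5677b461249dc66290f6aca408803)))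 (.node (nat_lit 14) (.leaf (nat_lit 0x5f34d42b88ca764accc721ea3b4a100883)) (.node (nat_lit 15) (.leaf (nat_lit 0x52fac5a19ac672699c75316f4a0a308044)) (.leaf (nat_lit 0x6697d46d89d61233d8972d076a8a010483))))))⟩
def jCertC0 : LevCert := ⟨jCertL0,
    [(nat_lit 8, nat_lit 0), (nat_lit 9, nat_lit 1), (nat_lit 7, nat_lit 0), (nat_lit 10, nat_lit 0), (nat_lit 15, nat_lit 1), (nat_lit 14, nat_lit 0), (nat_lit 11, nat_lit 1), (nat_lit 13, nat_lit 0), (nat_lit 12, nat_lit 1)],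
    [[nat_lit 2, nat_lit 0, nat_lit 0, nat_lit 2, nat_lit 0, nat_lit 2, nat_lit 0], [nat_lit 2, nat_lit 2, nat_lit 4, nat_lit 4, nat_lit 2, nat_lit 2, nat_lit 4, nat_lit 2, nat_lit 4, nat_lit 4, nat_lit 2]],
    [nat_lit 0x6b17cc654ace16531e9435c7598a019022, nat_lit 0x52f8cc6ba94ed079d484b56c718a408062]⟩
def jCertL1 : Lev := ⟨nat_lit 7, nat_lit 0x5b80, (.node (nat_lit 11) (.node (nat_lit 8) (.leaf (nat_lit 0x6b38bdab49ca307b9ac5a928398a418820)) (.node (nat_lit 9) (.leaf (nat_lit 0x6b17cc654ace16531e9435c7598a019022)) (.leaf (nat_lit 0x5319bda7aaca116a1eb628ee498a209060)))) (.node (nat_lit 12) (.leaf (nat_lit 0x6af9c4274956d16a54e3bd8b418a218024)) (.node (nat_lit 14) (.leaf (nat_lit 0x5337c425a9d63652da773d09618a008864)) (.leaf (nat_lit 0x52f8cc6ba94ed079d484b56c718a408062)))))⟩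
def jCertC1 : LevCert := ⟨jCertL1,
    [(nat_lit 8, nat_lit 0), (nat_lit 14, nat_lit 1), (nat_lit 11, nat_lit 0), (nat_lit 12, nat_lit 1), (nat_lit 9, nat_lit 0)],
    [],
    []⟩
def jCert : List LevCert := [jCertC0, jCertC1]
def jCertL : List Lev := [jCertL0, jCertL1]
def jCertAL0 : Lev := ⟨nat_lit 0, nat_lit 31, (.node (nat_lit 2) (.node (nat_lit 1) (.leaf (nat_lit 0x4688)) (.leaf (nat_lit 0x4283))) (.node (nat_lit 3) (.leaf (nat_lit 0x3214)) (.node (nat_lit 4) (.leaf (nat_lit 0x10d4)) (.leaf (nat_lit 0x654)))))⟩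
def jCertAC0 : LevCert := ⟨jCertAL0,
    [(nat_lit 4, nat_lit 1), (nat_lit 3, nat_lit 0), (nat_lit 2, nat_lit 0), (nat_lit 1, nat_lit 1)],
    [[nat_lit 2, nat_lit 0, nat_lit 0, nat_lit 2, nat_lit 0, nat_lit 0, nat_lit 2, nat_lit 0, nat_lit 2], [nat_lit 2, nat_lit 2]],
    [nat_lit 0x1710, nat_lit 0x3508]⟩
def jCertAL1 : Lev := ⟨nat_lit 1, nat_lit 30, (.node (nat_lit 3) (.node (nat_lit 2) (.leaf (nat_lit 0x4688)) (.leaf (nat_lit 0x2660))) (.node (nat_lit 4) (.leaf (nat_lit 0x32a0)) (.leaf (nat_lit 0x1710))))⟩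
def jCertAC1 : LevCert := ⟨jCertAL1,
    [(nat_lit 4, nat_lit 0), (nat_lit 2, nat_lit 0), (nat_lit 3, nat_lit 1)],
    [[nat_lit 0, nat_lit 2, nat_lit 0, nat_lit 0, nat_lit 0, nat_lit 0]],
    [nat_lit 0x28c8]⟩
def jCertAL2 : Lev := ⟨nat_lit 2, nat_lit 28, (.node (nat_lit 3) (.leaf (nat_lit 0x4688)) (.node (nat_lit 4) (.leaf (nat_lit 0x3508)) (.leaf (nat_lit 0x28c8))))⟩
def jCertAC2 : LevCert := ⟨jCertAL2,
    [(nat_lit 4, nat_lit 0), (nat_lit 3, nat_lit 0)],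
    [],
    []⟩
def jCertA : List LevCert := [jCertAC0, jCertAC1, jCertAC2]
def jCertAL : List Lev := [jCertAL0, jCertAL1, jCertAL2]
theorem j_ok : isoOK 5 3 8 22 5 32 27 5 Alt.a5CL (c0L.tail) jA jB jS jCert jCertA = true := by
  decide +kernel
theorem j_ss : ssOK 5 32 27 jCert jS = true := by
  decide +kernel
theorem j_equiv : Nonempty (↥(D ⊓ stabilizer (Equiv.Perm (Fin 22)) (0 : Fin 22)) ≃* alternatingGroup (Fin 5)) :=
  equiv_of_isoOK (F := E) (LK := c0L.tail) chain0.2.2 Alt.a5_chain 27 5 32 rfl rfl (by decide) j_ok j_ss (by decide +kernel)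
def lA : List ℕ := [nat_lit 0x1898, nat_lit 0x44c1]
def lB : List ℕ := [nat_lit 0x270745afa564c59d26110281a805, nat_lit 0x2349c2b273d8d58c4838404524c5]
def lS : List ℕ := [nat_lit 0x62b3b4a99d5e3063967499a87954120860, nat_lit 0x5b38aeaf3a465041dac3152f72d4410c01]
def lCertL0 : Lev := ⟨nat_lit 17, nat_lit 0x7fe0000, (.node (nat_lit 22) (.node (nat_lit 19) (.node (nat_lit 18) (.leaf (nat_lit 0x6b38bdab49ca307b9ac5a928398a418820)) (.leaf (nat_lit 0x5b38aeaf3a465041dac3152f72d4410c01))) (.node (nat_lit 20) (.leaf (nat_lit 0x5359c4ad78ceb0721476a4cc7aca101062)) (.node (nat_lit 21) (.leaf (nat_lit 0x4b59b5311bd67063d47594ce4352120043)) (.leaf (nat_lit 0x5676cd238bcb507b1282acce3b54218024))))) (.node (nat_lit 24) (.node (nat_lit 23) (.leaf (nat_lit 0x62f4d4679b565061cce4adaf428a020c41)) (.leaf (nat_lit 0x52768d737c6a5071d286a8cf6156200c81))) (.node (nat_lit 25) (.leaf (nat_lit 0x66d194efaa62b03a1af32d4c7152309002)) (.node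 (nat_lit 26) (.leaf (nat_lit 0x5a37a4b13ae750430a73352e7a96110064)) (.leaf (nat_lit 0x46f49e356ccab07a0ce515ac3a56019022))))))⟩
def lCertC0 : LevCert := ⟨lCertL0,
    [(nat_lit 18, nat_lit 1), (nat_lit 22, nat_lit 0), (nat_lit 23, nat_lit 0), (nat_lit 26, nat_lit 1), (nat_lit 21, nat_lit 1), (nat_lit 19, nat_lit 0), (nat_lit 25, nat_lit 0), (nat_lit 24, nat_lit 0), (nat_lit 20, nat_lit 1)],
    [[nat_lit 2, nat_lit 2, nat_lit 0, nat_lit 2, nat_lit 2], [nat_lit 4, nat_lit 2, nat_lit 2, nat_lit 4, nat_lit 2, nat_lit 4, nat_lit 2, nat_lit 2, nat_lit 4, nat_lit 2, nat_lit 4]],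
    [nat_lit 0x62b3b4a99d5e3063967499a87954120860, nat_lit 0x6754bca78ada306216f6992e3a8a320022]⟩
def lCertL1 : Lev := ⟨nat_lit 5, nat_lit 0x460, (.node (nat_lit 6) (.leaf (nat_lit 0x6b38bdab49ca307b9ac5a928398a418820)) (.node (nat_lit 10) (.leaf (nat_lit 0x62b3b4a99d5e3063967499a87954120860)) (.leaf (nat_lit 0x4e9a95f35c5a303b92f69568628c308880))))⟩
def lCertC1 : LevCert := ⟨lCertL1,
    [(nat_lit 6, nat_lit 0), (nat_lit 10, nat_lit 0)],
    [[nat_lit 0, nat_lit 0, nat_lit 2, nat_lit 2, nat_lit 0, nat_lit 0, nat_lit 0, nat_lit 0, nat_lit 2]],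
    [nat_lit 0x6754bca78ada306216f6992e3a8a320022]⟩
def lCertL2 : Lev := ⟨nat_lit 6, nat_lit 0x440, (.node (nat_lit 10) (.leaf (nat_lit 0x6b38bdab49ca307b9ac5a928398a418820)) (.leaf (nat_lit 0x6754bca78ada306216f6992e3a8a320022)))⟩
def lCertC2 : LevCert := ⟨lCertL2,
    [(nat_lit 10, nat_lit 0)],
    [],
    []⟩
def lCert : List LevCert := [lCertC0, lCertC1, lCertC2]
def lCertL : List Lev := [lCertL0, lCertL1, lCertL2]
def lCertAL0 : Lev := ⟨nat_lit 0, nat_lit 31, (.node (nat_lit 2) (.node (nat_lit 1) (.leaf (nat_lit 0x4688)) (.leaf (nat_lit 0x44c1))) (.node (nat_lit 3) (.leaf (nat_lit 0x260c)) (.node (nat_lit 4) (.leaf (nat_lit 0x20e1)) (.leaf (nat_lit 0x8d1)))))⟩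
def lCertAC0 : LevCert := ⟨lCertAL0,
    [(nat_lit 1, nat_lit 1), (nat_lit 4, nat_lit 0), (nat_lit 3, nat_lit 0), (nat_lit 2, nat_lit 1)],
    [[nat_lit 2, nat_lit 0, nat_lit 0, nat_lit 0, nat_lit 0, nat_lit 2, nat_lit 2, nat_lit 2, nat_lit 0, nat_lit 0, nat_lit 2], [nat_lit 2, nat_lit 2]],
    [nat_lit 0x3850, nat_lit 0x32a0]⟩
def lCertAL1 : Lev := ⟨nat_lit 1, nat_lit 30, (.node (nat_lit 3) (.node (nat_lit 2) (.leaf (nat_lit 0x4688)) (.leaf (nat_lit 0x3850))) (.node (nat_lit 4) (.leaf (nat_lit 0x32a0)) (.leaf (nat_lit 0x1710))))⟩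
def lCertAC1 : LevCert := ⟨lCertAL1,
    [(nat_lit 2, nat_lit 0), (nat_lit 3, nat_lit 1), (nat_lit 4, nat_lit 0)],
    [[nat_lit 0, nat_lit 2, nat_lit 0]],
    [nat_lit 0x28c8]⟩
def lCertAL2 : Lev := ⟨nat_lit 2, nat_lit 28, (.node (nat_lit 3) (.leaf (nat_lit 0x4688)) (.node (nat_lit 4) (.leaf (nat_lit 0x3508)) (.leaf (nat_lit 0x28c8))))⟩
def lCertAC2 : LevCert := ⟨lCertAL2,
    [(nat_lit 4, nat_lit 0), (nat_lit 3, nat_lit 0)],
    [],
    []⟩
def lCertA : List LevCert := [lCertAC0, lCertAC1, lCertAC2]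
def lCertAL : List Lev := [lCertAL0, lCertAL1, lCertAL2]
theorem l_ok : isoOK 5 3 8 22 5 32 27 5 Alt.a5CL (c1L.tail) lA lB lS lCert lCertA = true := by
  decide +kernel
theorem l_ss : ssOK 5 32 27 lCert lS = true := by
  decide +kernel
theorem l_equiv : Nonempty (↥(D ⊓ stabilizer (Equiv.Perm (Fin 22)) (11 : Fin 22)) ≃* alternatingGroup (Fin 5)) :=
  equiv_of_isoOK (F := E) (LK := c1L.tail) chain1.2.2 Alt.a5_chain 27 5 32 rfl rfl (by decide) l_ok l_ss (by decide +kernel)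
def sep : List ℕ := [nat_lit 0x1945c1b27ba359952740544008c3, nat_lit 0x24f9d62ba35cc805093904619540, nat_lit 0x2ad839937ca915a8e54990410c01, nat_lit 0x1cb64e90abdb2888c82806a39029, nat_lit 0x1b09c9d4646af59c40518a11a488, nat_lit 0x2b27d22c9b9706a823214c740920, nat_lit 0x17474a116cdeca81263a0a32044a, nat_lit 0x2349c2b273d8d58c4838404524c5, nat_lit 0x26baba30649afa2801298e219109, nat_lit 0x2b39518d7c1cb894ea20d0911820, nat_lit 0x2b05c9f48b1ae9a12a0186128887, nat_lit 0x1f38ae906bab2624c71a8a041022, nat_lit 0x29184eb272dac78868024e430545]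

theorem pairs : allElts 5 32 22 (fun Q => bimp (ordP 5 32 22 3 Q) (allElts 5 32 22 (fun P =>
    bimp (ordP 5 32 22 2 P) (force (comp 5 32 22 P Q) fun R => bimp (ordP 5 32 22 5 R)
      (anyN 22 fun i => Nat.beq (app 5 32 P i) i && Nat.beq (app 5 32 Q i) i))) c0L (idP 5 22)))
    c0L (idP 5 22) = true := by decide +kernel

theorem ordP_of_orderOf {p : ℕ} (hp : p ≠ 1) {g : Equiv.Perm (Fin 22)} (h : orderOf g = p) :
    ordP 5 32 22 p (E.pk g) = true := by
  simp only [ordP, Bool.and_eq_true, Bool.not_eq_true', beq_iff, ← Bool.not_eq_true]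
  rw [← E.pk_pow, ← E.pk_one, E.pk_inj, E.pk_inj, ← h, pow_orderOf_eq_one]
  exact ⟨fun e => hp (by rw [← h, e, orderOf_one]), rfl⟩

theorem a5_gen : ∃ a b : alternatingGroup (Fin 5), orderOf a = 2 ∧ orderOf b = 3 ∧
    orderOf (a * b) = 5 ∧ ∀ H : Subgroup (alternatingGroup (Fin 5)), a ∈ H → b ∈ H → H = ⊤ := by
  have : Fact (Nat.Prime 5) := ⟨by norm_num⟩
  let a : alternatingGroup (Fin 5) := ⟨c[0, 1] * c[2, 3], Equiv.Perm.mem_alternatingGroup.2 (by decide)⟩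
  let b : alternatingGroup (Fin 5) := ⟨c[0, 2, 4], Equiv.Perm.mem_alternatingGroup.2 (by decide)⟩
  have ha : orderOf a = 2 := orderOf_eq_prime (by decide +kernel) (by decide +kernel)
  have hb : orderOf b = 3 := orderOf_eq_prime (by decide +kernel) (by decide +kernel)
  have hc : orderOf (a * b) = 5 := orderOf_eq_prime (by decide +kernel) (by decide +kernel)
  refine ⟨a, b, ha, hb, hc, fun H h1 h2 => ?_⟩
  have h3 := ha ▸ H.orderOf_dvd_natCard h1
  have h4 := hb ▸ H.orderOf_dvd_natCard h2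
  have h5 := hc ▸ H.orderOf_dvd_natCard (H.mul_mem h1 h2)
  have h6 := H.card_mul_index
  rw [Alt.a5_card] at h6
  by_contra hne
  have h7 : H.index = 2 := by
    have : H.index ≠ 1 := fun h => hne (Subgroup.index_eq_one.1 h)
    obtain ⟨c, hc⟩ : 30 ∣ Nat.card H := by omega
    rw [hc] at h6
    have : c * H.index = 2 := by linarith
    have := Nat.le_of_dvd two_pos (Dvd.intro_left _ this)
    interval_cases H.index <;> omega
  rcases (Subgroup.normal_of_index_eq_two h7).eq_bot_or_eq_top with h | h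
  · rw [h, Subgroup.card_bot] at h3; omega
  · exact hne h

theorem exists_action {F : Type*} [Field F] [Fintype F] (hF : Fintype.card F = 11) :
    ∃ _ : MulAction (Matrix.ProjectiveSpecialLinearGroup (Fin 2) F) (Fin 22),
      Nat.card (Matrix.ProjectiveSpecialLinearGroup (Fin 2) F) = 660 ∧
      (∀ L : Subgroup (Matrix.ProjectiveSpecialLinearGroup (Fin 2) F),
        Nonempty (L ≃* alternatingGroup (Fin 5)) ↔ ∃ i : Fin 22, stabilizer _ i = L) ∧
      Function.Injective (stabilizer (Matrix.ProjectiveSpecialLinearGroup (Fin 2) F) : Fin 22 → _) ∧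
      (∀ i : Fin 22, ∃ g : Matrix.ProjectiveSpecialLinearGroup (Fin 2) F, g • i = 0 ∨ g • i = 11) ∧
      (∀ g : Matrix.ProjectiveSpecialLinearGroup (Fin 2) F, (g • (0 : Fin 22)).val < 11) ∧
      ∀ a b c d : Fin 22, a.val < 11 → b.val < 11 → c.val < 11 → d.val < 11 → a ≠ b → c ≠ d →
        ∃ g : Matrix.ProjectiveSpecialLinearGroup (Fin 2) F, g • a = c ∧ g • b = d := by
  obtain ⟨e1⟩ := L211.equiv hF
  obtain ⟨e2⟩ := i_equiv
  let e := e1.trans e2
  let := MulAction.compHom (Fin 22) (D.subtype.comp e.toMonoidHom)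
  have hs : ∀ g (i : Fin 22), g • i = (e g : Equiv.Perm (Fin 22)) i := fun _ _ => rfl
  have hex : ∀ x ∈ D, ∃ g, (e g : Equiv.Perm (Fin 22)) = x := fun x hx => ⟨e.symm ⟨x, hx⟩, by simp⟩
  have hlt : ∀ x ∈ D, ∀ i : Fin 22, i.val < 11 → (x i).val < 11 := fun x hx i hi => by
    obtain ⟨y, hy, rfl⟩ := (chain0.exists_apply i).2 ((by decide +kernel : ∀ i : Fin 22, i.val < 11 →
      tb c0L0.O i.val = true) i hi)
    exact (by decide +kernel : ∀ i : Fin 22, tb c0L0.O i.val = true → i.val < 11) _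
      (chain0.2.1 _ (D.mul_mem hx hy))
  have h4 : ∀ i : Fin 22, ∃ g : Matrix.ProjectiveSpecialLinearGroup (Fin 2) F,
      g • i = 0 ∨ g • i = 11 := fun i => by
    rcases (by decide +kernel : ∀ i : Fin 22, tb c0L0.O i.val = true ∨ tb c1L0.O i.val = true) i with
      h | h
    · obtain ⟨y, hy, rfl⟩ := (chain0.exists_apply i).2 h
      obtain ⟨g, rfl⟩ := hex y hy
      exact ⟨g⁻¹, Or.inl (inv_smul_smul g _)⟩
    · obtain ⟨y, hy, rfl⟩ := (chain1.exists_apply i).2 h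
      obtain ⟨g, rfl⟩ := hex y hy
      exact ⟨g⁻¹, Or.inr (inv_smul_smul g _)⟩
  have h2 : ∀ i : Fin 22, Nonempty (stabilizer (Matrix.ProjectiveSpecialLinearGroup (Fin 2) F) i ≃*
      alternatingGroup (Fin 5)) := by
    have key : ∀ i : Fin 22, Nonempty (stabilizer (Matrix.ProjectiveSpecialLinearGroup (Fin 2) F) i ≃*
        ↥(D ⊓ stabilizer (Equiv.Perm (Fin 22)) i)) := fun i => by
      obtain ⟨A, f, -, hA⟩ := exists_subgroup_equiv e (inf_le_left (b := stabilizer _ i))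
      exact ⟨(MulEquiv.subgroupCongr (Subgroup.ext fun g =>
        ((hA g).trans (and_iff_right (e g).2)).symm)).trans f⟩
    intro i
    obtain ⟨g, h | h⟩ := h4 i
    · exact ⟨((stabilizerEquivStabilizer h.symm).trans (key 0).some).trans j_equiv.some⟩
    · exact ⟨((stabilizerEquivStabilizer h.symm).trans (key 11).some).trans l_equiv.some⟩
  refine ⟨inferInstance, (Nat.card_congr e1.toEquiv).trans L211.card,
    fun L => ⟨fun ⟨f⟩ => ?_, fun ⟨i, hi⟩ => hi ▸ h2 i⟩, fun i j hij => ?_, h4,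
    fun g => hlt _ (e g).2 0 (by decide), fun a b c d ha hb hc hd hab hcd => ?_⟩
  · obtain ⟨a, b, ha, hb, hc, hg⟩ := a5_gen
    let ρ : alternatingGroup (Fin 5) →* Equiv.Perm (Fin 22) :=
      ((D.subtype.comp e.toMonoidHom).comp L.subtype).comp f.symm.toMonoidHom
    have hρ : Function.Injective ρ := ((Subtype.val_injective.comp e.injective).comp
      Subtype.val_injective).comp f.symm.injective
    have h5 := bimp_iff.1 (chain0.forall_of_allElts (bimp_iff.1 (chain0.forall_of_allElts pairs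
      (ρ b) (e _).2) (ordP_of_orderOf (by decide) ((orderOf_injective ρ hρ b).trans hb))) (ρ a) (e _).2)
      (ordP_of_orderOf (by decide) ((orderOf_injective ρ hρ a).trans ha))
    rw [force_eq, ← E.pk_mul, ← map_mul] at h5
    obtain ⟨i, hi, h6⟩ := anyN_iff.1 (bimp_iff.1 h5
      (ordP_of_orderOf (by decide) ((orderOf_injective ρ hρ _).trans hc)))
    rw [Bool.and_eq_true, beq_iff, beq_iff] at h6
    have h7 := hg ((stabilizer _ (E.pt i)).comap ρ) ((E.apply_pt _ hi).trans (congrArg _ h6.1))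
      ((E.apply_pt _ hi).trans (congrArg _ h6.2))
    refine ⟨E.pt i, (Subgroup.eq_of_le_of_card_ge (fun g hg => ?_) ?_).symm⟩
    · have := h7.ge (Subgroup.mem_top (f ⟨g, hg⟩))
      rw [mem_stabilizer_iff, hs]
      simpa [ρ] using this
    · rw [Nat.card_congr f.toEquiv, Nat.card_congr (h2 _).some.toEquiv]
  · by_contra hne
    obtain ⟨P, hP, h5⟩ := anyL_iff.1 ((by decide +kernel : ∀ i j : Fin 22, i ≠ j → anyL sep (fun P =>
      Nat.beq (app 5 32 P i.val) i.val && !Nat.beq (app 5 32 P j.val) j.val) = true) i j hne)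
    obtain ⟨x, hx, rfl⟩ := inG_of_memOK chain0 (l := sep) (by decide +kernel) P hP
    obtain ⟨g, rfl⟩ := hex x hx
    rw [Bool.and_eq_true, beq_iff, Bool.not_eq_true', ← Bool.not_eq_true, beq_iff] at h5
    have h6 : g ∈ stabilizer _ i := Fin.ext ((E.app_pk _ i).symm.trans h5.1)
    rw [hij] at h6
    exact h5.2 ((E.app_pk _ j).trans (congrArg Fin.val h6))
  · obtain ⟨x, hx, h5⟩ := chain0.preChain.exists_forall_apply_eq {i | i.val < 11} hlt 2047
      (by decide +kernel) 2 (by decide +kernel) ![a, b] ![c, d]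
      (by simp [Function.Injective, Fin.forall_fin_two, hab, hab.symm])
      (by simp [Function.Injective, Fin.forall_fin_two, hcd, hcd.symm])
      (by simp [Fin.forall_fin_two, ha, hb]) (by simp [Fin.forall_fin_two, hc, hd])
    obtain ⟨g, rfl⟩ := hex x hx
    exact ⟨g, h5 0, h5 1⟩

end Cfsg.Agent.H56.L211A5
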