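/-
The ternary Golay code `Cfsg.ternaryGolayCode`: explicit parametrisation by six free coordinates.
-/
import Cfsg.Prelude.Def_SporadicCombinatorics

set_option autoImplicit false
open Cfsg

namespace Cfsg.Agent.H56

/-- six free coordinates -/
abbrev W6 : Type := ZMod 3 × ZMod 3 × ZMod 3 × ZMod 3 × ZMod 3 × ZMod 3

/-- column of the array -/
def tcol (x y z : ZMod 3) (r : ZMod 3) : ZMod 3 := if r = 0 then x else if r = 1 then y else z

/-- the code word with given entries in the positions (0,0),(0,1),(0,2),(1,0),(1,1),(2,0) -/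
def tenc (v : W6) (p : ArrayPt) : ZMod 3 :=
  match v with
  | (a, b, c, d, e, f) =>
    if p.1 = 0 then tcol a b c p.2
    else if p.1 = 1 then tcol d e (a + b + c + 2 * d + 2 * e) p.2
    else if p.1 = 2 then tcol f (2 * b + c + 2 * d + e + f) (a + 2 * b + d + 2 * e + f) p.2
    else tcol (a + 2 * b + 2 * c + 2 * d + 2 * f) (a + c + d + e + 2 * f)
      (2 * a + 2 * b + c + 2 * e + 2 * f) p.2

/-- the six free coordinates of a word -/
def tdec (x : ArrayPt → ZMod 3) : W6 :=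
  (x (0, 0), x (0, 1), x (0, 2), x (1, 0), x (1, 1), x (2, 0))

theorem tdec_tenc (v : W6) : tdec (tenc v) = v := rfl

theorem tenc_injective : Function.Injective tenc :=
  Function.LeftInverse.injective tdec_tenc

theorem mem_tetracode_iff (t : Fin 4 → ZMod 3) :
    t ∈ tetracode ↔ ∃ a b : ZMod 3, t = ![b, a, a + b, a + 2 * b] := by
  rw [tetracode, Submodule.mem_span_pair]
  refine exists_congr fun a => exists_congr fun b => ?_
  have : a • (![0, 1, 1, 1] : Fin 4 → ZMod 3) + b • ![1, 0, 1, 2] = ![b, a, a + b, a + 2 * b] := by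
    funext i; fin_cases i <;> simp [mul_comm]
  rw [this, eq_comm]

theorem sum_zmod3 (f : ZMod 3 → ZMod 3) : ∑ r : ZMod 3, f r = f 0 + f 1 + f 2 :=
  Fin.sum_univ_three f

theorem isWord_iff (x : ArrayPt → ZMod 3) : x ∈ ternaryGolayCode ↔
    ∃ s : ZMod 3, (∀ i : Fin 4, x (i, 0) + x (i, 1) + x (i, 2) = -s) ∧
      ∀ a b : ZMod 3, x (0, b) + x (1, a) + x (2, a + b) + x (3, a + 2 * b) = s := by
  show IsTernaryGolayWord x ↔ _
  unfold IsTernaryGolayWord
  refine exists_congr fun s => and_congr ?_ ?_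
  · simp only [sum_zmod3]
  · simp only [mem_tetracode_iff, Fin.sum_univ_four]
    constructor
    · intro h a b
      simpa using h _ ⟨a, b, rfl⟩
    · rintro h t ⟨a, b, rfl⟩
      simpa using h a b

theorem tenc_mem (v : W6) : tenc v ∈ ternaryGolayCode := by
  rw [isWord_iff]
  refine ⟨2 * (v.1 + v.2.1 + v.2.2.1), ?_⟩
  revert v
  decide +kernel

theorem tenc_tdec {x : ArrayPt → ZMod 3} (hx : x ∈ ternaryGolayCode) : tenc (tdec x) = x := by
  obtain ⟨s, h1, h2⟩ := (isWord_iff x).1 hx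
  have c0 := h1 0
  have c1 := h1 1
  have c2 := h1 2
  have c3 := h1 3
  have t00 : x (0, 0) + x (1, 0) + x (2, 0) + x (3, 0) = s := h2 0 0
  have t01 : x (0, 1) + x (1, 0) + x (2, 1) + x (3, 2) = s := h2 0 1
  have t02 : x (0, 2) + x (1, 0) + x (2, 2) + x (3, 1) = s := h2 0 2
  have t10 : x (0, 0) + x (1, 1) + x (2, 1) + x (3, 1) = s := h2 1 0
  have t11 : x (0, 1) + x (1, 1) + x (2, 2) + x (3, 0) = s := h2 1 1
  have t12 : x (0, 2) + x (1, 1) + x (2, 0) + x (3, 2) = s := h2 1 2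
  have t20 : x (0, 0) + x (1, 2) + x (2, 2) + x (3, 2) = s := h2 2 0
  have t21 : x (0, 1) + x (1, 2) + x (2, 0) + x (3, 1) = s := h2 2 1
  have t22 : x (0, 2) + x (1, 2) + x (2, 1) + x (3, 0) = s := h2 2 2
  have e12 : x (0, 0) + x (0, 1) + x (0, 2) + 2 * x (1, 0) + 2 * x (1, 1) = x (1, 2) := by grind
  have e21 : 2 * x (0, 1) + x (0, 2) + 2 * x (1, 0) + x (1, 1) + x (2, 0) = x (2, 1) := by grind
  have e22 : x (0, 0) + 2 * x (0, 1) + x (1, 0) + 2 * x (1, 1) + x (2, 0) = x (2, 2) := by grind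
  have e30 : x (0, 0) + 2 * x (0, 1) + 2 * x (0, 2) + 2 * x (1, 0) + 2 * x (2, 0) = x (3, 0) := by
    grind
  have e31 : x (0, 0) + x (0, 2) + x (1, 0) + x (1, 1) + 2 * x (2, 0) = x (3, 1) := by grind
  have e32 : 2 * x (0, 0) + 2 * x (0, 1) + x (0, 2) + 2 * x (1, 1) + 2 * x (2, 0) = x (3, 2) := by
    grind
  funext ⟨i, r⟩
  fin_cases i <;> fin_cases r
  · rfl
  · rfl
  · rfl
  · rfl
  · rfl
  · exact e12
  · rfl
  · exact e21
  · exact e22
  · exact e30
  · exact e31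
  · exact e32

theorem mem_tGolay_iff {x : ArrayPt → ZMod 3} : x ∈ ternaryGolayCode ↔ ∃ v, x = tenc v :=
  ⟨fun h => ⟨_, (tenc_tdec h).symm⟩, fun ⟨v, h⟩ => h ▸ tenc_mem v⟩

theorem mem_tGolay_iff' {x : ArrayPt → ZMod 3} : x ∈ ternaryGolayCode ↔ tenc (tdec x) = x :=
  ⟨tenc_tdec, fun h => h ▸ tenc_mem _⟩

theorem ncard_tGolay (P : (ArrayPt → ZMod 3) → Prop) [DecidablePred fun v => P (tenc v)] :
    {x | x ∈ ternaryGolayCode ∧ P x}.ncard = (Finset.univ.filter fun v => P (tenc v)).card := by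
  rw [← Set.ncard_coe_finset, ← Set.ncard_image_of_injective _ tenc_injective]
  congr 1
  ext x
  simp only [mem_tGolay_iff, Set.mem_ofPred_eq, Finset.coe_filter, Finset.mem_univ, true_and,
    Set.mem_image]
  constructor
  · rintro ⟨⟨v, rfl⟩, h⟩
    exact ⟨v, h, rfl⟩
  · rintro ⟨v, h, rfl⟩
    exact ⟨⟨v, rfl⟩, h⟩

theorem tenc_weight (v : W6) : v = 0 ∨ (ternarySupport (tenc v)).card = 6 ∨
    (ternarySupport (tenc v)).card = 9 ∨ (ternarySupport (tenc v)).card = 12 := by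
  revert v
  decide +kernel

theorem tenc_zero : tenc 0 = 0 := by decide

theorem tGolay_weight {x : ArrayPt → ZMod 3} (hx : x ∈ ternaryGolayCode) (h0 : x ≠ 0) :
    (ternarySupport x).card = 6 ∨ (ternarySupport x).card = 9 ∨ (ternarySupport x).card = 12 := by
  obtain ⟨v, rfl⟩ := mem_tGolay_iff.1 hx
  rcases tenc_weight v with rfl | h
  · exact absurd tenc_zero h0
  · exact h

end Cfsg.Agent.H56
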