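/-
The hexads of the ternary Golay code as bitmasks; monomial automorphisms.
-/
import Cfsg.Agent.H56.TGolay
import Cfsg.Agent.H56.Bits

set_option autoImplicit false
open Cfsg
open scoped Pointwise

namespace Cfsg.Agent.H56

/-- indexing of the twelve positions -/
def aI : Indexing ArrayPt where
  n := 12
  idx p := 3 * p.1.val + p.2.val
  pt n := (Fin.ofNat 4 (n / 3), (n : ZMod 3))
  idx_lt := by decide
  pt_idx := by decide
  idx_pt := by decide

/-- the hexads of the ternary code -/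
def tHex : Set (Finset ArrayPt) :=
  {h : Finset ArrayPt | ∃ x ∈ ternaryGolayCode, ternarySupport x = h ∧ h.card = 6}

/-- masks of the hexads, each with (the ternary digits of) a code word having it as support -/
def tHexCert : List (ℕ × ℕ) := [
  (63, 229), (222, 696), (237, 289), (243, 574), (347, 439), (366, 318), (373, 667), (413, 154),
  (427, 61), (438, 102), (455, 499), (504, 594), (591, 565), (630, 579), (633, 379), (667, 112),
  (679, 22), (700, 117), (725, 415), (746, 543), (791, 97), (813, 37), (826, 192), (860, 711),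
  (867, 247), (910, 66), (945, 163), (969, 514), (978, 327), (996, 252), (1117, 604),
  (1127, 259), (1146, 354), (1175, 187), (1198, 39), (1209, 190), (1227, 301), (1268, 657),
  (1295, 49), (1331, 85), (1340, 144), (1366, 417), (1385, 541), (1434, 219), (1445, 10),
  (1484, 279), (1489, 325), (1506, 489), (1566, 156), (1579, 34), (1589, 100), (1619, 652),
  (1644, 306), (1677, 64), (1714, 165), (1734, 264), (1752, 432), (1761, 487), (1817, 217),
  (1830, 12), (1861, 262), (1866, 516), (1904, 567), (1923, 7), (1940, 90), (1960, 27),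
  (2135, 346), (2155, 517), (2172, 441), (2191, 43), (2229, 91), (2234, 138), (2265, 703),
  (2278, 255), (2334, 120), (2343, 25), (2361, 109), (2381, 307), (2418, 651), (2451, 166),
  (2476, 63), (2506, 273), (2516, 576), (2529, 244), (2589, 208), (2606, 48), (2611, 169),
  (2650, 462), (2661, 496), (2710, 174), (2729, 55), (2755, 250), (2764, 522), (2800, 324),
  (2827, 58), (2868, 171), (2886, 507), (2897, 568), (2920, 270), (2949, 19), (2968, 189),
  (2978, 3), (3099, 142), (3117, 73), (3126, 183), (3150, 552), (3185, 406), (3228, 225),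
  (3235, 4), (3269, 505), (3282, 570), (3304, 513), (3349, 172), (3370, 57), (3395, 493),
  (3416, 675), (3428, 495), (3462, 21), (3465, 28), (3504, 81), (3591, 13), (3640, 108),
  (3657, 271), (3668, 333), (3682, 246), (3722, 30), (3729, 82), (3748, 9), (3852, 36),
  (3858, 84), (3873, 1), (4032, 243)]

/-- masks of the hexads -/
def tHexL : List ℕ := tHexCert.map Prod.fst

/-- the mask of the support of a word -/
def smask (x : ArrayPt → ZMod 3) : ℕ := Nat.ofBits fun i : Fin 12 => decide (x (aI.pt i) ≠ 0)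

theorem bits_smask (x : ArrayPt → ZMod 3) : aI.bits (smask x) = ternarySupport x := by
  ext p
  rw [aI.mem_bits, smask, Nat.testBit_ofBits_lt _ _ (show aI.idx p < 12 from aI.idx_lt p)]
  simp [ternarySupport, aI.pt_idx]

/-- six coordinates from ternary digits -/
def w6 (n : ℕ) : W6 := (n, (n / 3 : ℕ), (n / 9 : ℕ), (n / 27 : ℕ), (n / 81 : ℕ), (n / 243 : ℕ))

theorem tHexL_lt : ∀ m ∈ tHexL, m < 2 ^ 12 := by decide +kernel
theorem tHexL_nodup : tHexL.Nodup := by decide +kernel
theorem tHexL_length : tHexL.length = 132 := by decide +kernel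

theorem mem_tHex_iff {s : Finset ArrayPt} : s ∈ tHex ↔ ∃ m ∈ tHexL, s = aI.bits m := by
  constructor
  · rintro ⟨x, hx, rfl, h6⟩
    obtain ⟨v, rfl⟩ := mem_tGolay_iff.1 hx
    have : ∀ v : W6, (ternarySupport (tenc v)).card = 6 → smask (tenc v) ∈ tHexL := by
      decide +kernel
    exact ⟨_, this v h6, (bits_smask _).symm⟩
  · rintro ⟨m, hm, rfl⟩
    obtain ⟨c, hc, rfl⟩ := List.mem_map.1 hm
    have : ∀ c ∈ tHexCert, smask (tenc (w6 c.2)) = c.1 ∧
        (H14.cntN 12 fun i => c.1.testBit i) = 6 := by decide +kernel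
    refine ⟨_, tenc_mem (w6 c.2), ?_, ?_⟩
    · rw [← bits_smask, (this c hc).1]
    · rw [aI.card_bits]; exact (this c hc).2

theorem bits_mem_tHex_iff {m : ℕ} (hm : m < 2 ^ 12) : aI.bits m ∈ tHex ↔ m ∈ tHexL := by
  rw [mem_tHex_iff]
  refine ⟨fun ⟨m', hm', h⟩ => ?_, fun h => ⟨m, h, rfl⟩⟩
  rwa [aI.bits_inj hm (tHexL_lt m' hm') h]

theorem tHex_ncard : tHex.ncard = 132 := by
  have h : tHex = aI.bits '' (tHexL.toFinset : Set ℕ) := by
    ext s
    simp only [mem_tHex_iff, Set.mem_image, List.coe_toFinset, Set.mem_ofPred_eq, eq_comm]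
  rw [h, Set.InjOn.ncard_image, Set.ncard_coe_finset, List.toFinset_card_of_nodup tHexL_nodup,
    tHexL_length]
  intro a ha b hb hab
  exact aI.bits_inj (tHexL_lt a (by simpa using ha)) (tHexL_lt b (by simpa using hb)) hab

theorem tHex_steiner : IsSteinerSystem 5 6 tHex := by
  refine ⟨fun b hb => hb.choose_spec.2.2, fun s hs => ?_⟩
  obtain ⟨m, hm, rfl⟩ := aI.exists_bits s
  rw [aI.card_bits] at hs
  have h : H14.all2 64 64 (fun m => H14.bimp (Nat.beq (H14.cntN 12 fun i => m.testBit i) 5)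
      (Nat.beq (tHexL.filter fun h => Nat.beq (Nat.land m h) m).length 1)) = true := by
    decide +kernel
  have h1 := H14.beq_iff.1 (H14.bimp_iff.1 (H14.all2_iff.1 h m hm) (H14.beq_iff.2 hs))
  obtain ⟨a, ha⟩ := List.length_eq_one_iff.1 h1
  have h2 : ∀ h, h ∈ tHexL ∧ m &&& h = m ↔ h = a := fun h => by
    rw [← List.mem_singleton (b := a), ← ha, List.mem_filter, H14.beq_iff]; rfl
  obtain ⟨ha1, ha2⟩ := (h2 a).2 rfl
  refine ⟨aI.bits a, ⟨mem_tHex_iff.2 ⟨a, ha1, rfl⟩, aI.bits_subset_of_and ha2⟩, ?_⟩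
  rintro b ⟨hb, hsb⟩
  obtain ⟨h, hh, rfl⟩ := mem_tHex_iff.1 hb
  rw [(h2 h).1 ⟨hh, (aI.bits_subset_iff hm).1 hsb⟩]

/-- test whether six indices form a hexad -/
def hx6 (a b c d e f : ℕ) : Bool :=
  tHexL.elem (2 ^ a ||| (2 ^ b ||| (2 ^ c ||| (2 ^ d ||| (2 ^ e ||| 2 ^ f)))))

theorem hx6_iff (a b c d e f : ArrayPt) :
    hx6 (aI.idx a) (aI.idx b) (aI.idx c) (aI.idx d) (aI.idx e) (aI.idx f) = true ↔
      ({a, b, c, d, e, f} : Finset ArrayPt) ∈ tHex := by
  have hl : ∀ p : ArrayPt, 2 ^ aI.idx p < 2 ^ 12 := fun p =>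
    Nat.pow_lt_pow_right (by norm_num) (aI.idx_lt p)
  rw [hx6, List.elem_iff, ← bits_mem_tHex_iff (Nat.or_lt_two_pow (hl a) (Nat.or_lt_two_pow (hl b)
    (Nat.or_lt_two_pow (hl c) (Nat.or_lt_two_pow (hl d) (Nat.or_lt_two_pow (hl e) (hl f))))))]
  simp only [aI.bits_insert, aI.bits_two_pow]

theorem hx6_map {σ : Equiv.Perm ArrayPt} (hσ : σ ∈ setSystemAut tHex) (a b c d e f : ℕ)
    (h : hx6 (aI.idx (aI.pt a)) (aI.idx (aI.pt b)) (aI.idx (aI.pt c)) (aI.idx (aI.pt d))
      (aI.idx (aI.pt e)) (aI.idx (aI.pt f)) = true) :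
    hx6 (aI.idx (σ (aI.pt a))) (aI.idx (σ (aI.pt b))) (aI.idx (σ (aI.pt c)))
      (aI.idx (σ (aI.pt d))) (aI.idx (σ (aI.pt e))) (aI.idx (σ (aI.pt f))) = true := by
  rw [hx6_iff] at h ⊢
  have h1 : σ • tHex = tHex := hσ
  have h2 := Set.smul_mem_smul_set (a := σ) h
  rw [h1] at h2
  simpa [Finset.smul_finset_insert] using h2

/-- an automorphism of the hexad system fixing the first five positions is trivial -/
theorem tHex_aut_eq_one {σ : Equiv.Perm ArrayPt} (hσ : σ ∈ setSystemAut tHex)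
    (h : ∀ i : Fin 5, σ • aI.pt i = aI.pt i) : σ = 1 := by
  have key0 : (H14.allN 12 fun y5 => H14.bimp (hx6 0 1 2 3 4 y5) <| H14.allN 12 fun y6 =>
      H14.allN 12 fun y9 => H14.bimp (hx6 0 1 2 3 y6 y9) <|
      H14.allN 12 fun y11 => H14.bimp (hx6 0 1 2 4 y6 y11) <|
      H14.allN 12 fun y7 => H14.bimp (hx6 0 1 2 3 y11 y7) <|
      H14.allN 12 fun y8 => H14.bimp (hx6 0 1 2 4 y9 y8) <|
      H14.allN 12 fun y10 => H14.bimp (hx6 0 1 2 3 y8 y10) <|
      H14.bimp (hx6 1 2 3 4 y6 y7) <| H14.bimp (hx6 0 2 3 y5 y6 y7) <|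
      decide (y5 = 5 ∧ y6 = 6 ∧ y7 = 7 ∧ y8 = 8 ∧ y9 = 9 ∧ y10 = 10 ∧ y11 = 11)) = true := by
    decide +kernel
  have key : ∀ y5 < 12, hx6 0 1 2 3 4 y5 = true → ∀ y6 < 12, ∀ y9 < 12, hx6 0 1 2 3 y6 y9 = true →
      ∀ y11 < 12, hx6 0 1 2 4 y6 y11 = true → ∀ y7 < 12, hx6 0 1 2 3 y11 y7 = true →
      ∀ y8 < 12, hx6 0 1 2 4 y9 y8 = true → ∀ y10 < 12, hx6 0 1 2 3 y8 y10 = true →
      hx6 1 2 3 4 y6 y7 = true → hx6 0 2 3 y5 y6 y7 = true →
      y5 = 5 ∧ y6 = 6 ∧ y7 = 7 ∧ y8 = 8 ∧ y9 = 9 ∧ y10 = 10 ∧ y11 = 11 := by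
    simpa only [H14.allN_iff, H14.bimp_iff, decide_eq_true_eq] using key0
  have h0 : aI.idx (σ (aI.pt 0)) = 0 := congrArg aI.idx (h 0)
  have h1 : aI.idx (σ (aI.pt 1)) = 1 := congrArg aI.idx (h 1)
  have h2 : aI.idx (σ (aI.pt 2)) = 2 := congrArg aI.idx (h 2)
  have h3 : aI.idx (σ (aI.pt 3)) = 3 := congrArg aI.idx (h 3)
  have h4 : aI.idx (σ (aI.pt 4)) = 4 := congrArg aI.idx (h 4)
  have e1 := hx6_map hσ 0 1 2 3 4 5 (by decide)
  have e2 := hx6_map hσ 0 1 2 3 6 9 (by decide)
  have e3 := hx6_map hσ 0 1 2 4 6 11 (by decide)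
  have e4 := hx6_map hσ 0 1 2 3 11 7 (by decide)
  have e5 := hx6_map hσ 0 1 2 4 9 8 (by decide)
  have e6 := hx6_map hσ 0 1 2 3 8 10 (by decide)
  have e7 := hx6_map hσ 1 2 3 4 6 7 (by decide)
  have e8 := hx6_map hσ 0 2 3 5 6 7 (by decide)
  simp only [h0, h1, h2, h3, h4] at e1 e2 e3 e4 e5 e6 e7 e8
  obtain ⟨h5, h6, h7, h8, h9, h10, h11⟩ := key _ (aI.idx_lt _) e1 _ (aI.idx_lt _) _ (aI.idx_lt _) e2
    _ (aI.idx_lt _) e3 _ (aI.idx_lt _) e4 _ (aI.idx_lt _) e5 _ (aI.idx_lt _) e6 e7 e8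
  have hall : ∀ i < 12, aI.idx (σ (aI.pt i)) = i := by
    intro i hi
    interval_cases i <;> assumption
  ext1 p
  apply aI.idx_injective
  have := hall _ (aI.idx_lt p)
  rwa [aI.pt_idx] at this

/-- data of monomial automorphisms: packed permutation, packed inverse, sign mask -/
def tAutData : List (ℕ × ℕ × ℕ) := [
  (205163983024656, 205163983024656, 0), (114875801285121, 114875801285121, 0),
  (171143312191746, 186601419583521, 0), (203987229090051, 200838984500001, 1331),
  (149235455697156, 167656838677281, 1940), (188533650432261, 188465698652961, 667),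
  (203028566319366, 203798352446241, 1581), (111366534013191, 95138016215841, 993),
  (98289112523016, 129331828900641, 1224), (134738834825481, 151774303765281, 349),
  (77607836262666, 106195122340641, 1271), (163099914215691, 8479751947041, 430), (0, 0, 0),
  (205163983024656, 205163983024656, 0), (148896472117536, 148896472117536, 0),
  (183040958800176, 118230153958176, 1331), (117199865061696, 134787001041696, 1940),
  (167587380142416, 148135453475616, 667), (95969627808096, 113630368056096, 1581),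
  (186389881889136, 100781785563936, 993), (128339622961536, 164384360514336, 1224),
  (82852190560656, 184818442388256, 349), (199520902390176, 195118630322976, 1271),
  (148040433476016, 27948870026016, 430), (0, 0, 0), (0, 0, 0),
  (205163983024656, 205163983024656, 0), (167926364906256, 167926364906256, 1331),
  (135818296632336, 184072505803536, 1940), (201938729903376, 203992259183376, 667),
  (152511949514256, 169717554103056, 1581), (92816805144336, 97264529457936, 993),
  (165301675304976, 111817503752976, 1224), (185219212847376, 135422825480976, 349),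
  (115772311677456, 143646984323856, 1271), (76520923278096, 42435747726096, 430), (0, 0, 0),
  (0, 0, 0), (0, 0, 0), (205163983024656, 205163983024656, 0),
  (147865428247056, 147865428247056, 0), (186605193351696, 171139535290896, 0),
  (199605510955536, 202694063505936, 6), (116911320035856, 99399427965456, 5),
  (96304787325456, 129277051159056, 3), (128266436579856, 115692283773456, 6),
  (82916315210256, 179793663050256, 3), (167424912765456, 61273455280656, 5), (0, 0, 0),
  (0, 0, 0), (0, 0, 0), (0, 0, 0), (205163983024656, 205163983024656, 0),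
  (132399770186256, 132399770186256, 0), (183942805598736, 153208536773136, 6),
  (80841396400656, 95285065495056, 5), (110731096240656, 164327252963856, 3),
  (153208536773136, 183942805598736, 6), (164327252963856, 110731096240656, 3),
  (95285065495056, 80841396400656, 5)]

/-- unpack a permutation table -/
def unp (t : ℕ) (p : ArrayPt) : ArrayPt := aI.pt ((t >>> (4 * aI.idx p)) % 16)

/-- signs from a mask -/
def sgn3 (s : ℕ) (p : ArrayPt) : (ZMod 3)ˣ := if s.testBit (aI.idx p) then -1 else 1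

theorem preserves_of_basis (σ : Equiv.Perm ArrayPt) (c : ArrayPt → (ZMod 3)ˣ)
    (h : ∀ j < 6, monomialMap σ c (tenc (w6 (3 ^ j))) ∈ ternaryGolayCode) :
    ∀ x ∈ ternaryGolayCode, monomialMap σ c x ∈ ternaryGolayCode := by
  intro x hx
  obtain ⟨⟨a, b, c', d, e, f⟩, rfl⟩ := mem_tGolay_iff.1 hx
  have h1 : tenc (a, b, c', d, e, f) = a • tenc (w6 (3 ^ 0)) + b • tenc (w6 (3 ^ 1)) +
      c' • tenc (w6 (3 ^ 2)) + d • tenc (w6 (3 ^ 3)) + e • tenc (w6 (3 ^ 4)) +
      f • tenc (w6 (3 ^ 5)) := by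
    clear hx
    revert a b c' d e f
    decide +kernel
  have h2 : monomialMap σ c (tenc (a, b, c', d, e, f)) =
      a • monomialMap σ c (tenc (w6 (3 ^ 0))) + b • monomialMap σ c (tenc (w6 (3 ^ 1))) +
      c' • monomialMap σ c (tenc (w6 (3 ^ 2))) + d • monomialMap σ c (tenc (w6 (3 ^ 3))) +
      e • monomialMap σ c (tenc (w6 (3 ^ 4))) + f • monomialMap σ c (tenc (w6 (3 ^ 5))) := by
    rw [h1]
    funext p
    simp only [monomialMap, Pi.add_apply, Pi.smul_apply, smul_eq_mul]
    ring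
  rw [h2]
  refine add_mem (add_mem (add_mem (add_mem (add_mem ?_ ?_) ?_) ?_) ?_) ?_ <;>
    exact Submodule.smul_mem _ _ (h _ (by norm_num))

theorem tAut_transversal (i : Fin 5) (y : ArrayPt) (hy : ∀ j < i, y ≠ aI.pt (j : Fin 5)) :
    ∃ σ : Equiv.Perm ArrayPt, (∃ c : ArrayPt → (ZMod 3)ˣ,
      ∀ x ∈ ternaryGolayCode, monomialMap σ c x ∈ ternaryGolayCode) ∧
      (∀ j < i, σ • aI.pt (j : Fin 5) = aI.pt j) ∧ σ • aI.pt i = y := by
  have key : ∀ (i : Fin 5) (y : ArrayPt), (∀ j < i, y ≠ aI.pt (j : Fin 5)) →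
      let d := tAutData.getD (12 * i + aI.idx y) (0, 0, 0)
      (∀ p, unp d.2.1 (unp d.1 p) = p) ∧ (∀ j < i, unp d.1 (aI.pt (j : Fin 5)) = aI.pt j) ∧
      unp d.1 (aI.pt i) = y ∧ ∀ j < 6, ∀ p,
        tenc (tdec fun q => (sgn3 d.2.2 q : ZMod 3) * tenc (w6 (3 ^ j)) (unp d.2.1 q)) p =
          (sgn3 d.2.2 p : ZMod 3) * tenc (w6 (3 ^ j)) (unp d.2.1 p) := by
    decide +kernel
  obtain ⟨h1, h2, h3, h4⟩ := key i y hy
  obtain ⟨σ, hσ, hσ'⟩ := exists_perm_of_leftInverse _ _ h1
  refine ⟨σ, ⟨sgn3 (tAutData.getD (12 * i + aI.idx y) (0, 0, 0)).2.2,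
    preserves_of_basis _ _ fun j hj => ?_⟩, fun j hj => ?_, ?_⟩
  · rw [mem_tGolay_iff']
    funext p
    simp only [monomialMap, hσ']
    have := h4 j hj p
    unfold monomialMap
    simp only [hσ']
    exact this
  · exact (hσ _).trans (h2 j hj)
  · exact (hσ _).trans h3

end Cfsg.Agent.H56
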